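import Cfsg.Prelude.Def_JordanBlocks

/-!
The centraliser of a unipotent matrix of given Jordan type: its order.
-/

set_option autoImplicit false

namespace Cfsg.Agent.ClassConj

open Matrix Finset

variable {F : Type*} [Field F] {t : ℕ} (d : Fin t → ℕ)

/-- Row and column indices of the Jordan type matrix. -/
abbrev JIdx : Type := (k : Fin t) × Fin (d k)

/-- The nilpotent shift of the given type. -/
def jordanShift : Matrix (JIdx d) (JIdx d) F :=
  Matrix.of fun p q => if p.1 = q.1 ∧ (p.2 : ℕ) = (q.2 : ℕ) + 1 then 1 else 0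

theorem jordanTypeMatrix_eq : Cfsg.jordanTypeMatrix d F = 1 + jordanShift d := by
  ext ⟨l, b⟩ ⟨k, a⟩
  rcases eq_or_ne l k with rfl | h
  · rw [Cfsg.jordanTypeMatrix, Matrix.blockDiagonal'_apply_eq]
    rcases eq_or_ne b a with rfl | hb
    · simp [Cfsg.jordanBlock, jordanShift, Matrix.one_apply]
    · have : (b : ℕ) ≠ a := fun e => hb (Fin.ext e)
      simp [Cfsg.jordanBlock, jordanShift, Matrix.one_apply, hb, this]
  · rw [Cfsg.jordanTypeMatrix, Matrix.blockDiagonal'_apply_ne _ _ _ h]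
    simp [jordanShift, Matrix.one_apply, h]

variable {d}

theorem shift_mul_apply (X : Matrix (JIdx d) (JIdx d) F) (l : Fin t) (b : Fin (d l)) (q : JIdx d) :
    (jordanShift d * X : Matrix (JIdx d) (JIdx d) F) ⟨l, b⟩ q =
      if 0 < (b : ℕ) then X ⟨l, ⟨(b : ℕ) - 1, by have := b.2; omega⟩⟩ q else 0 := by
  rw [Matrix.mul_apply]
  split_ifs with h
  · rw [Finset.sum_eq_single ⟨l, ⟨(b : ℕ) - 1, by have := b.2; omega⟩⟩]
    · rw [jordanShift, Matrix.of_apply, if_pos ⟨rfl, show (b : ℕ) = (b : ℕ) - 1 + 1 by omega⟩, one_mul]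
    · rintro ⟨k, a⟩ - hne
      rw [jordanShift, Matrix.of_apply, if_neg, zero_mul]
      rintro ⟨h1, h2⟩
      have h1 : l = k := h1
      subst h1
      have h2 : (b : ℕ) = (a : ℕ) + 1 := h2
      exact hne (congrArg (Sigma.mk l) (Fin.ext (by show (a : ℕ) = (b : ℕ) - 1; omega)))
    · exact fun h => absurd (Finset.mem_univ _) h
  · refine Finset.sum_eq_zero fun r _ => ?_
    rw [jordanShift, Matrix.of_apply, if_neg, zero_mul]
    rintro ⟨-, h2⟩
    have h2 : (b : ℕ) = (r.2 : ℕ) + 1 := h2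
    omega

theorem mul_shift_apply (X : Matrix (JIdx d) (JIdx d) F) (k : Fin t) (a : Fin (d k)) (p : JIdx d) :
    (X * jordanShift d : Matrix (JIdx d) (JIdx d) F) p ⟨k, a⟩ =
      if h : (a : ℕ) + 1 < d k then X p ⟨k, ⟨(a : ℕ) + 1, h⟩⟩ else 0 := by
  rw [Matrix.mul_apply]
  split_ifs with h
  · rw [Finset.sum_eq_single ⟨k, ⟨(a : ℕ) + 1, h⟩⟩]
    · simp [jordanShift]
    · rintro ⟨l, b⟩ - hne
      rw [jordanShift, Matrix.of_apply, if_neg, mul_zero]
      rintro ⟨h1, h2⟩
      have h1 : l = k := h1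
      subst h1
      exact hne (congrArg (Sigma.mk l) (Fin.ext h2))
    · exact fun h => absurd (Finset.mem_univ _) h
  · refine Finset.sum_eq_zero fun r _ => ?_
    rw [jordanShift, Matrix.of_apply, if_neg, mul_zero]
    rintro ⟨h1, h2⟩
    obtain ⟨l, b⟩ := r
    have h1 : l = k := h1
    subst h1
    have h2 : (b : ℕ) = (a : ℕ) + 1 := h2
    exact h (h2 ▸ b.2)

variable (d) in
/-- The free parameters of a commuting matrix. -/
abbrev CPar : Type := (l : Fin t) × (k : Fin t) × {b : Fin (d l) // d l ≤ (b : ℕ) + d k}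

/-- The commuting matrix with given parameters. -/
def mkComm (c : CPar d → F) : Matrix (JIdx d) (JIdx d) F :=
  Matrix.of fun p q => if h : (q.2 : ℕ) ≤ p.2 ∧ d p.1 ≤ ((p.2 : ℕ) - q.2) + d q.1 then
    c ⟨p.1, q.1, ⟨⟨(p.2 : ℕ) - q.2, by have := p.2.2; omega⟩, h.2⟩⟩ else 0

theorem mkComm_commute (c : CPar d → F) :
    mkComm c * jordanShift d = jordanShift d * mkComm c := by
  ext ⟨l, b⟩ ⟨k, a⟩
  rw [mul_shift_apply, shift_mul_apply]
  simp only [mkComm, Matrix.of_apply]
  have ha := a.2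
  have hb := b.2
  split_ifs <;> first
    | rfl
    | (exfalso; omega)
    | (congr 1; simp only [Sigma.mk.injEq, heq_eq_eq, true_and]; exact Subtype.ext (Fin.ext (by simp only; omega)))

theorem eq_first_column {X : Matrix (JIdx d) (JIdx d) F} (hX : X * jordanShift d = jordanShift d * X)
    (l k : Fin t) : ∀ (a : ℕ) (ha : a < d k) (b : Fin (d l)),
      X ⟨l, b⟩ ⟨k, ⟨a, ha⟩⟩ = if a ≤ (b : ℕ) then X ⟨l, ⟨(b : ℕ) - a, by have := b.2; omega⟩⟩ ⟨k, ⟨0, by omega⟩⟩ else 0
  | 0, _, b => by simp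
  | a + 1, ha, b => by
    have h := congrFun (congrFun hX ⟨l, b⟩) ⟨k, ⟨a, by omega⟩⟩
    rw [mul_shift_apply, shift_mul_apply, dif_pos ha] at h
    rw [h]
    by_cases hb : 0 < (b : ℕ)
    · rw [if_pos hb, eq_first_column hX l k a (by omega)]
      simp only
      by_cases hab : a + 1 ≤ (b : ℕ)
      · rw [if_pos hab, if_pos (by omega : a ≤ (b : ℕ) - 1)]
        simp only [show (b : ℕ) - 1 - a = (b : ℕ) - (a + 1) by omega]
      · rw [if_neg hab, if_neg (by omega : ¬ a ≤ (b : ℕ) - 1)]
    · rw [if_neg hb, if_neg (by omega)]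

theorem first_column_eq_zero {X : Matrix (JIdx d) (JIdx d) F} (hX : X * jordanShift d = jordanShift d * X)
    (l k : Fin t) (b : Fin (d l)) (hk : 0 < d k) (h : (b : ℕ) + d k < d l) :
    X ⟨l, b⟩ ⟨k, ⟨0, hk⟩⟩ = 0 := by
  have h1 := congrFun (congrFun hX ⟨l, ⟨(b : ℕ) + d k, h⟩⟩) ⟨k, ⟨d k - 1, by omega⟩⟩
  rw [mul_shift_apply, shift_mul_apply, dif_neg (show ¬ (d k - 1 + 1 < d k) by omega),
    if_pos (show 0 < (b : ℕ) + d k by omega), eq_first_column hX l k _ (by omega),
    if_pos (show d k - 1 ≤ (b : ℕ) + d k - 1 by omega)] at h1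
  simp only [show (b : ℕ) + d k - 1 - (d k - 1) = (b : ℕ) by omega] at h1
  exact h1.symm

theorem eq_mkComm (hd : ∀ k, 1 ≤ d k) {X : Matrix (JIdx d) (JIdx d) F}
    (hX : X * jordanShift d = jordanShift d * X) :
    mkComm (fun x : CPar d => X ⟨x.1, x.2.2.1⟩ ⟨x.2.1, ⟨0, hd _⟩⟩) = X := by
  ext ⟨l, b⟩ ⟨k, a⟩
  rw [eq_first_column hX l k a a.2 b]
  simp only [mkComm, Matrix.of_apply]
  have ha := a.2
  by_cases hab : (a : ℕ) ≤ b
  · rw [if_pos hab]
    by_cases h : d l ≤ ((b : ℕ) - a) + d k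
    · rw [dif_pos ⟨hab, h⟩]
    · rw [dif_neg (fun e => h e.2)]
      exact (first_column_eq_zero hX l k _ (hd k) (by simp only; omega)).symm
  · rw [if_neg hab, dif_neg (fun e => hab e.1)]

theorem mkComm_injective (hd : ∀ k, 1 ≤ d k) : Function.Injective (mkComm (F := F) (d := d)) := by
  intro c c' e
  funext ⟨l, k, b, hb⟩
  have h := congrFun (congrFun e ⟨l, b⟩) ⟨k, ⟨0, hd k⟩⟩
  simp only [mkComm, Matrix.of_apply] at h
  rw [dif_pos ⟨Nat.zero_le _, hb⟩, dif_pos ⟨Nat.zero_le _, hb⟩] at h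
  exact h

variable (d) in
/-- Blocks of size `i`. -/
abbrev BlockSet (i : ℕ) : Type := {k : Fin t // d k = i}

/-- The part between blocks of the same size, at the top. -/
def topPart (hd : ∀ k, 1 ≤ d k) (X : Matrix (JIdx d) (JIdx d) F) (i : ℕ) :
    Matrix (BlockSet d i) (BlockSet d i) F :=
  Matrix.of fun l k => X ⟨l.1, ⟨0, hd _⟩⟩ ⟨k.1, ⟨0, hd _⟩⟩

theorem topPart_mul (hd : ∀ k, 1 ≤ d k) {X Y : Matrix (JIdx d) (JIdx d) F}
    (hX : X * jordanShift d = jordanShift d * X) (hY : Y * jordanShift d = jordanShift d * Y) (i : ℕ) :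
    topPart hd (X * Y) i = topPart hd X i * topPart hd Y i := by
  ext ⟨l, hl⟩ ⟨k, hk⟩
  simp only [topPart, Matrix.of_apply, Matrix.mul_apply]
  let e : BlockSet d i → JIdx d := fun m => ⟨m.1, ⟨0, hd _⟩⟩
  have he : Function.Injective e := fun a b h => Subtype.ext (congrArg Sigma.fst h)
  refine (Finset.sum_of_injOn e he.injOn (fun _ _ => Finset.mem_univ _) ?_ (fun _ _ => rfl)).symm
  rintro ⟨m, c, hc⟩ - hne
  have hl0 := hd l
  have hk0 := hd k
  rcases Nat.eq_zero_or_pos c with rfl | hc0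
  · have hm : d m ≠ i := fun hm => hne ⟨⟨m, hm⟩, Finset.mem_coe.2 (Finset.mem_univ _), rfl⟩
    rcases Nat.lt_or_ge (d k) (d m) with h | h
    · rw [first_column_eq_zero hY m k ⟨0, hc⟩ (hd k) (by simp only; omega), mul_zero]
    · rw [first_column_eq_zero hX l m ⟨0, hd l⟩ hc (by simp only; omega), zero_mul]
  · rw [eq_first_column hX l m c hc, if_neg (show ¬ c ≤ 0 by omega), zero_mul]

theorem isNilpotent_of_topPart_eq_zero (hd : ∀ k, 1 ≤ d k) {X : Matrix (JIdx d) (JIdx d) F}
    (hX : X * jordanShift d = jordanShift d * X) (h : ∀ i, topPart hd X i = 0) : IsNilpotent X := by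
  set D := Finset.univ.sup d
  let w : JIdx d → ℕ := fun p => (p.2 : ℕ) * (D + 1) + (D - d p.1)
  have hD : ∀ k, d k ≤ D := fun k => Finset.le_sup (Finset.mem_univ k)
  have hstep : ∀ p q, X p q ≠ 0 → w q + 1 ≤ w p := by
    rintro ⟨l, b⟩ ⟨k, a⟩ hne
    rw [eq_first_column hX l k a a.2 b] at hne
    have hab : (a : ℕ) ≤ b := by
      by_contra hab
      exact hne (if_neg hab)
    rw [if_pos hab] at hne
    have hle : d l ≤ ((b : ℕ) - a) + d k := by
      by_contra hle
      exact hne (first_column_eq_zero hX l k _ (hd k) (by simp only; omega))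
    have hl := hD l
    have hk := hD k
    rcases Nat.eq_or_lt_of_le hab with hab' | hab'
    · have hne' : d l ≠ d k := by
        intro hlk
        refine hne ?_
        have h0 := congrFun (congrFun (h (d k)) ⟨l, hlk⟩) ⟨k, rfl⟩
        simp only [topPart, Matrix.of_apply, Matrix.zero_apply] at h0
        simp only [← hab', Nat.sub_self]
        exact h0
      simp only [w]; rw [← hab']; omega
    · simp only [w]
      have : ((a : ℕ) + 1) * (D + 1) ≤ (b : ℕ) * (D + 1) := Nat.mul_le_mul_right _ hab'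
      rw [add_mul, one_mul] at this
      omega
  have hpow : ∀ j p q, (X ^ j) p q ≠ 0 → w q + j ≤ w p := by
    intro j
    induction j with
    | zero =>
      intro p q hpq
      rw [pow_zero, Matrix.one_apply] at hpq
      split_ifs at hpq with e
      · subst e; omega
      · exact absurd rfl hpq
    | succ j ih =>
      intro p q hpq
      rw [pow_succ, Matrix.mul_apply] at hpq
      obtain ⟨r, -, hr⟩ := Finset.exists_ne_zero_of_sum_ne_zero hpq
      have h1 := ih p r (left_ne_zero_of_mul hr)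
      have h2 := hstep r q (right_ne_zero_of_mul hr)
      omega
  refine ⟨(D + 1) * (D + 1), ?_⟩
  ext p q
  by_contra hne
  have h1 := hpow _ p q hne
  have h2 : (p.2 : ℕ) < D := lt_of_lt_of_le p.2.2 (hD p.1)
  have h3 : ((p.2 : ℕ) + 1) * (D + 1) ≤ (D + 1) * (D + 1) := Nat.mul_le_mul_right _ (by omega)
  rw [add_mul, one_mul] at h3
  simp only [w] at h1
  omega

theorem topPart_one (hd : ∀ k, 1 ≤ d k) (i : ℕ) :
    topPart hd (1 : Matrix (JIdx d) (JIdx d) F) i = 1 := by
  ext ⟨l, hl⟩ ⟨k, hk⟩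
  simp only [topPart, Matrix.of_apply, Matrix.one_apply, Sigma.mk.injEq, Subtype.mk.injEq]
  by_cases h : l = k
  · subst h; simp
  · simp [h]

theorem isUnit_iff_topPart [Finite F] (hd : ∀ k, 1 ≤ d k) {X : Matrix (JIdx d) (JIdx d) F}
    (hX : X * jordanShift d = jordanShift d * X) :
    IsUnit X ↔ ∀ i : Fin (Finset.univ.sup d + 1), IsUnit (topPart hd X i) := by
  constructor
  · rintro ⟨u, rfl⟩ i
    have hu : ((u⁻¹ : (Matrix (JIdx d) (JIdx d) F)ˣ) : Matrix _ _ F) * jordanShift d
        = jordanShift d * ((u⁻¹ : (Matrix (JIdx d) (JIdx d) F)ˣ) : Matrix _ _ F) :=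
      Commute.units_inv_left (show Commute (u : Matrix (JIdx d) (JIdx d) F) (jordanShift d) from hX)
    refine ⟨⟨topPart hd (u : Matrix (JIdx d) (JIdx d) F) i, topPart hd ((u⁻¹ : (Matrix (JIdx d) (JIdx d) F)ˣ) : Matrix _ _ F) i, ?_, ?_⟩, rfl⟩
    · rw [← topPart_mul hd hX hu, Units.mul_inv, topPart_one]
    · rw [← topPart_mul hd hu hX, Units.inv_mul, topPart_one]
  · intro h
    let u : (i : Fin (Finset.univ.sup d + 1)) → (Matrix (BlockSet d i) (BlockSet d i) F)ˣ := fun i => (h i).unit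
    obtain ⟨e, he, hue⟩ := (isOfFinOrder_of_finite u).exists_pow_eq_one
    have hXc : ∀ j, X ^ j * jordanShift d = jordanShift d * X ^ j := fun j =>
      (show Commute X (jordanShift d) from hX).pow_left j
    have hpow : ∀ (i : ℕ) j, topPart hd (X ^ j) i = topPart hd X i ^ j := by
      intro i j
      induction j with
      | zero => rw [pow_zero, pow_zero, topPart_one]
      | succ j ih => rw [pow_succ, topPart_mul hd (hXc j) hX, ih, pow_succ]
    have hn : IsNilpotent (X ^ e - 1) := by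
      refine isNilpotent_of_topPart_eq_zero hd (by rw [sub_mul, mul_sub, hXc, one_mul, mul_one]) fun i => ?_
      have : topPart hd (X ^ e - 1) i = topPart hd (X ^ e) i - topPart hd 1 i := rfl
      rw [this, topPart_one, hpow]
      by_cases hi : i < Finset.univ.sup d + 1
      · have h1 := congrArg Units.val (congrFun hue ⟨i, hi⟩)
        rw [Pi.pow_apply, Units.val_pow_eq_pow_val, Pi.one_apply, Units.val_one] at h1
        rw [show topPart hd X i ^ e = 1 from h1, sub_self]
      · haveI : IsEmpty (BlockSet d i) := ⟨fun k => hi (Nat.lt_succ_of_le (by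
          have h5 := Finset.le_sup (f := d) (Finset.mem_univ k.1)
          rwa [k.2] at h5))⟩
        exact Subsingleton.elim _ _
    have hu : IsUnit (X ^ e) := by
      have := hn.isUnit_one_add
      rwa [add_sub_cancel] at this
    exact (isUnit_pow_iff he.ne').1 hu

/-- Splitting off the top parts. -/
noncomputable def parSplit (hd : ∀ k, 1 ≤ d k) :
    (CPar d → F) ≃ ((i : Fin (Finset.univ.sup d + 1)) → Matrix (BlockSet d i) (BlockSet d i) F) ×
      ({x : CPar d // ¬ (d x.1 = d x.2.1 ∧ (x.2.2.1 : ℕ) = 0)} → F) := by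
  classical
  exact
  { toFun := fun c => (fun i => Matrix.of fun l k => c ⟨l.1, k.1, ⟨⟨0, hd _⟩, by simp [l.2, k.2]⟩⟩, fun x => c x.1)
    invFun := fun p x => if h : d x.1 = d x.2.1 ∧ (x.2.2.1 : ℕ) = 0 then
      p.1 ⟨d x.2.1, Nat.lt_succ_of_le (Finset.le_sup (Finset.mem_univ _))⟩ ⟨x.1, h.1⟩ ⟨x.2.1, rfl⟩
      else p.2 ⟨x, h⟩
    left_inv := fun c => by
      funext x
      obtain ⟨l, k, b, hb⟩ := x
      by_cases h : d l = d k ∧ (b : ℕ) = 0
      · simp only [dif_pos h, Matrix.of_apply]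
        refine congrArg c ?_
        simp only [Sigma.mk.injEq, heq_eq_eq, true_and]
        exact Subtype.ext (Fin.ext h.2.symm)
      · simp only [dif_neg h]
    right_inv := fun p => by
      refine Prod.ext ?_ (funext fun x => dif_neg x.2)
      funext ⟨i, hi⟩
      ext ⟨l, hl⟩ ⟨k, hk⟩
      simp only at hl hk
      subst hk
      exact dif_pos ⟨hl, rfl⟩ }

theorem card_subtype_add_le (x y : ℕ) : Nat.card {b : Fin x // x ≤ (b : ℕ) + y} = min x y := by
  rw [← Nat.card_fin (min x y)]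
  exact Nat.card_congr
    { toFun := fun b => ⟨(b.1 : ℕ) - (x - min x y), by have := b.1.2; have := b.2; omega⟩
      invFun := fun j => ⟨⟨(x - min x y) + j, by have := j.2; omega⟩, by have := j.2; simp only; omega⟩
      left_inv := fun b => Subtype.ext (Fin.ext (by have := b.1.2; have := b.2; simp only; omega))
      right_inv := fun j => Fin.ext (by simp only; omega) }

theorem sum_fibre_two (f : ℕ → ℕ → ℕ) :
    ∑ l, ∑ k, f (d l) (d k) = ∑ i ∈ range (Finset.univ.sup d + 1), ∑ j ∈ range (Finset.univ.sup d + 1),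
      (Finset.univ.filter (fun k => d k = i)).card * ((Finset.univ.filter (fun k => d k = j)).card * f i j) := by
  have hg : ∀ g : ℕ → ℕ, ∑ k, g (d k) = ∑ j ∈ range (Finset.univ.sup d + 1),
      (Finset.univ.filter (fun k => d k = j)).card * g j := by
    intro g
    rw [← Finset.sum_fiberwise_of_maps_to (g := d) (t := range (Finset.univ.sup d + 1))
      (fun k _ => Finset.mem_range.2 (Nat.lt_succ_of_le (Finset.le_sup (Finset.mem_univ k))))]
    refine Finset.sum_congr rfl fun j _ => ?_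
    rw [Finset.sum_congr rfl (fun k hk => congrArg g (Finset.mem_filter.1 hk).2), Finset.sum_const, smul_eq_mul]
  rw [hg (fun x => ∑ k, f x (d k))]
  refine Finset.sum_congr rfl fun i _ => ?_
  rw [hg (f i), Finset.mul_sum]

theorem sum_min_eq (r : Finset ℕ) (a : ℕ → ℕ) (h0 : a 0 = 0) :
    ∑ i ∈ r, ∑ j ∈ r, a i * (a j * min i j) =
      2 * (∑ i ∈ r, ∑ j ∈ r, if i < j then i * a i * a j else 0) + ∑ i ∈ r, (i - 1) * a i ^ 2 + ∑ i ∈ r, a i ^ 2 := by
  have h : ∀ i j, a i * (a j * min i j) = (if i < j then i * a i * a j else 0)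
      + (if j < i then j * a j * a i else 0) + (if i = j then (i - 1) * a i ^ 2 + a i ^ 2 else 0) := by
    intro i j
    rcases lt_trichotomy i j with h | h | h
    · rw [if_pos h, if_neg (by omega), if_neg (by omega), min_eq_left h.le]; ring
    · subst h
      rw [if_neg (lt_irrefl i), if_pos rfl, min_self]
      rcases Nat.eq_zero_or_pos i with rfl | hi
      · simp [h0]
      · obtain ⟨i, rfl⟩ : ∃ k, i = k + 1 := ⟨i - 1, by omega⟩
        simp; ring
    · rw [if_neg (by omega), if_pos h, if_neg (by omega), min_eq_right h.le]; ring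
  simp only [h, Finset.sum_add_distrib]
  rw [Finset.sum_comm (f := fun i j => if j < i then j * a j * a i else 0), two_mul, add_assoc _ (∑ i ∈ r, (i - 1) * a i ^ 2)]
  congr 1
  rw [← Finset.sum_add_distrib]
  exact Finset.sum_congr rfl fun i hi => by rw [Finset.sum_ite_eq, if_pos hi]

theorem card_block_units [Fintype F] (i : ℕ) : Nat.card {M : Matrix (BlockSet d i) (BlockSet d i) F // IsUnit M} =
    ∏ j : Fin ((Finset.univ.filter (fun k : Fin t => d k = i)).card),
      (Fintype.card F ^ (Finset.univ.filter (fun k : Fin t => d k = i)).card - Fintype.card F ^ (j : ℕ)) := by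
  have hc : Fintype.card (BlockSet d i) = (Finset.univ.filter (fun k : Fin t => d k = i)).card :=
    Fintype.card_subtype _
  let e : BlockSet d i ≃ Fin (Finset.univ.filter (fun k : Fin t => d k = i)).card :=
    (Fintype.equivFin _).trans (finCongr hc)
  rw [← Matrix.card_GL_field, Nat.card_congr
    ({ toFun := fun M => M.2.unit
       invFun := fun u => ⟨u, u.isUnit⟩
       left_inv := fun M => rfl
       right_inv := fun u => Units.ext rfl } :
      {M : Matrix (BlockSet d i) (BlockSet d i) F // IsUnit M} ≃ (Matrix (BlockSet d i) (BlockSet d i) F)ˣ)]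
  exact Nat.card_congr (Units.mapEquiv (Matrix.reindexAlgEquiv F F e).toMulEquiv).toEquiv

/-- The order of the centraliser of a unipotent matrix of given Jordan type. -/
theorem card_jordanType_centralizer [Fintype F] (hd : ∀ k, 1 ≤ d k) :
    Nat.card {g : GL (JIdx d) F // (g : Matrix (JIdx d) (JIdx d) F) * Cfsg.jordanTypeMatrix d F =
      Cfsg.jordanTypeMatrix d F * (g : Matrix (JIdx d) (JIdx d) F)} =
    Fintype.card F ^ (2 * (∑ i ∈ range (Finset.univ.sup d + 1), ∑ j ∈ range (Finset.univ.sup d + 1),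
        if i < j then i * (Finset.univ.filter (fun k : Fin t => d k = i)).card * (Finset.univ.filter (fun k : Fin t => d k = j)).card else 0)
      + ∑ i ∈ range (Finset.univ.sup d + 1), (i - 1) * (Finset.univ.filter (fun k : Fin t => d k = i)).card ^ 2)
    * ∏ i ∈ range (Finset.univ.sup d + 1), ∏ j : Fin ((Finset.univ.filter (fun k : Fin t => d k = i)).card),
      (Fintype.card F ^ (Finset.univ.filter (fun k : Fin t => d k = i)).card - Fintype.card F ^ (j : ℕ)) := by
  classical
  set a : ℕ → ℕ := fun i => (Finset.univ.filter (fun k : Fin t => d k = i)).card with ha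
  set q := Fintype.card F
  set R := {x : CPar d // ¬ (d x.1 = d x.2.1 ∧ (x.2.2.1 : ℕ) = 0)}
  have hJ : ∀ X : Matrix (JIdx d) (JIdx d) F, X * Cfsg.jordanTypeMatrix d F = Cfsg.jordanTypeMatrix d F * X ↔
      X * jordanShift d = jordanShift d * X := fun X => by
    rw [jordanTypeMatrix_eq, mul_add, add_mul, mul_one, one_mul, add_right_inj]
  have htop : ∀ (c : CPar d → F) (i : Fin (Finset.univ.sup d + 1)),
      topPart hd (mkComm c) i = (parSplit hd c).1 i := by
    intro c i
    ext ⟨l, hl⟩ ⟨k, hk⟩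
    simp only [topPart, mkComm, Matrix.of_apply, parSplit, Equiv.coe_fn_mk]
    rw [dif_pos ⟨le_rfl, by omega⟩]
  have e1 : {g : GL (JIdx d) F // (g : Matrix (JIdx d) (JIdx d) F) * Cfsg.jordanTypeMatrix d F =
      Cfsg.jordanTypeMatrix d F * (g : Matrix (JIdx d) (JIdx d) F)} ≃
      {c : CPar d → F // ∀ i, IsUnit ((parSplit hd c).1 i)} :=
    { toFun := fun g => ⟨fun x => (g.1 : Matrix (JIdx d) (JIdx d) F) ⟨x.1, x.2.2.1⟩ ⟨x.2.1, ⟨0, hd _⟩⟩, fun i => by
        have hg := (hJ _).1 g.2
        rw [← htop, eq_mkComm hd hg]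
        exact (isUnit_iff_topPart hd hg).1 g.1.isUnit i⟩
      invFun := fun c => ⟨((isUnit_iff_topPart hd (mkComm_commute c.1)).2 fun i => by rw [htop]; exact c.2 i).unit,
        by rw [hJ, IsUnit.unit_spec]; exact mkComm_commute c.1⟩
      left_inv := fun g => Subtype.ext (Units.ext (by rw [IsUnit.unit_spec]; exact eq_mkComm hd ((hJ _).1 g.2)))
      right_inv := fun c => Subtype.ext (mkComm_injective hd (by
        simp only [IsUnit.unit_spec]
        exact eq_mkComm hd (mkComm_commute c.1))) }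
  have e2 : {c : CPar d → F // ∀ i, IsUnit ((parSplit hd c).1 i)} ≃
      ((i : Fin (Finset.univ.sup d + 1)) → {M : Matrix (BlockSet d i) (BlockSet d i) F // IsUnit M}) × (R → F) :=
    { toFun := fun c => (fun i => ⟨(parSplit hd c.1).1 i, c.2 i⟩, (parSplit hd c.1).2)
      invFun := fun p => ⟨(parSplit hd).symm (fun i => (p.1 i).1, p.2), fun i => by
        rw [Equiv.apply_symm_apply]; exact (p.1 i).2⟩
      left_inv := fun c => Subtype.ext ((parSplit hd).symm_apply_apply c.1)
      right_inv := fun p => by simp }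
  have hR : Nat.card (R → F) = q ^ (2 * (∑ i ∈ range (Finset.univ.sup d + 1), ∑ j ∈ range (Finset.univ.sup d + 1),
      if i < j then i * a i * a j else 0) + ∑ i ∈ range (Finset.univ.sup d + 1), (i - 1) * a i ^ 2) := by
    have h := Nat.card_congr (parSplit (F := F) hd)
    rw [Nat.card_fun, Nat.card_prod, Nat.card_sigma, Nat.card_pi] at h
    have hS : ∑ l, Nat.card ((k : Fin t) × {b : Fin (d l) // d l ≤ (b : ℕ) + d k}) = ∑ l, ∑ k, min (d l) (d k) :=
      Finset.sum_congr rfl fun l _ => by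
        rw [Nat.card_sigma]; exact Finset.sum_congr rfl fun k _ => card_subtype_add_le _ _
    have hM : ∀ i : Fin (Finset.univ.sup d + 1),
        Nat.card (Matrix (BlockSet d i) (BlockSet d i) F) = q ^ (a i ^ 2) := fun i => by
      rw [Matrix, Nat.card_fun, Nat.card_fun, ← pow_mul, Nat.card_eq_fintype_card, Nat.card_eq_fintype_card,
        Fintype.card_subtype, sq]
    rw [hS, sum_fibre_two, Finset.prod_congr rfl (fun i _ => hM i), Fin.prod_univ_eq_prod_range (fun i => q ^ (a i ^ 2)),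
      Finset.prod_pow_eq_pow_sum, sum_min_eq _ a (by
        rw [ha]; exact Finset.card_eq_zero.2 (Finset.filter_eq_empty_iff.2 fun k _ => by have := hd k; omega)),
      pow_add, mul_comm, Nat.card_eq_fintype_card] at h
    exact (Nat.eq_of_mul_eq_mul_left (pow_pos Fintype.card_pos _) h).symm
  rw [Nat.card_congr (e1.trans e2), Nat.card_prod, hR, Nat.card_pi, mul_comm]
  congr 1
  rw [← Fin.prod_univ_eq_prod_range (fun i => ∏ j : Fin (a i), (q ^ a i - q ^ (j : ℕ)))]
  exact Finset.prod_congr rfl fun i _ => card_block_units (F := F) (d := d) (i : ℕ)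

end Cfsg.Agent.ClassConj
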