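import Cfsg.Agent.ClassConj.JordanType
import Cfsg.Agent.ClassConj.JordanCentralizer
import Cfsg.Agent.ClassConj.SympRegularCount
import Cfsg.Agent.Elusive25.UnipOrth
import Cfsg.Agent.SympSub.Iso

/-!
Which Jordan types occur among unipotent isometries of non-degenerate alternating or symmetric forms.
-/

set_option autoImplicit false

namespace Cfsg.Agent.ClassConj.FormTypes

open Module
open LinearMap (BilinForm)
open Cfsg.Agent.Elusive (layerDim layerSpace)

variable {F : Type*} [Field F] {V : Type*} [AddCommGroup V] [Module F V]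
  {V' : Type*} [AddCommGroup V'] [Module F V']

/-- `f` is unipotent with block sizes `μ`. -/
def HasType (f : Module.End F V) (μ : Multiset ℕ) : Prop :=
  IsNilpotent (f - 1) ∧ ∀ k, layerDim (f - 1) ⊤ k = μ.countP (fun b => k < b)

theorem count_add_countP (μ : Multiset ℕ) (k : ℕ) :
    μ.count (k + 1) + μ.countP (fun b => k + 1 < b) = μ.countP fun b => k < b := by
  induction μ using Multiset.induction_on with
  | empty => simp
  | cons b μ ih =>
    simp only [Multiset.count_cons, Multiset.countP_cons]
    split_ifs <;> omega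

theorem hasType_count {f : Module.End F V} {μ : Multiset ℕ} (h : HasType f μ) (k : ℕ) :
    μ.count (k + 1) = layerDim (f - 1) ⊤ k - layerDim (f - 1) ⊤ (k + 1) := by
  rw [h.2, h.2]
  have := count_add_countP μ k
  omega

theorem pow_conj {N : Module.End F V} {N' : Module.End F V'} (E : V ≃ₗ[F] V')
    (h : ∀ v, N' (E v) = E (N v)) (m : ℕ) : ∀ v, (N' ^ m) (E v) = E ((N ^ m) v) := by
  induction m with
  | zero => intro v; simp
  | succ m ih => intro v; rw [pow_succ', Module.End.mul_apply, ih, h, pow_succ', Module.End.mul_apply]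

theorem hasType_conj {f : Module.End F V} {f' : Module.End F V'} (E : V ≃ₗ[F] V')
    (h : ∀ v, f' (E v) = E (f v)) {μ : Multiset ℕ} (hf : HasType f μ) : HasType f' μ := by
  have h' : ∀ v, (f' - 1) (E v) = E ((f - 1) v) := fun v => by simp [h]
  obtain ⟨p, hp⟩ := hf.1
  refine ⟨⟨p, LinearMap.ext fun v => ?_⟩, fun k => by rw [Elusive25.layerDim_conj E _ _ h', hf.2]⟩
  obtain ⟨v, rfl⟩ := E.surjective v
  rw [pow_conj E h', hp]
  simp

theorem hasType_finrank [FiniteDimensional F V] {f : Module.End F V} {μ : Multiset ℕ}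
    (h : HasType f μ) : finrank F V = μ.sum := by
  obtain ⟨p, hp⟩ := h.1
  have h1 := Elusive.sum_layerDim (f - 1) ⊤ (p + μ.sum)
  rw [pow_eq_zero_of_le (Nat.le_add_right p _) hp, LinearMap.ker_zero, inf_top_eq, finrank_top,
    Finset.sum_congr rfl fun k _ => h.2 k,
    sum_countP_eq μ _ fun b hb => (Multiset.le_sum_of_mem hb).trans (Nat.le_add_left _ _)] at h1
  exact h1.symm

theorem prodMap_pow (N₁ : Module.End F V) (N₂ : Module.End F V') (m : ℕ) : ∀ x : V × V',
    ((N₁.prodMap N₂ : Module.End F (V × V')) ^ m) x = ((N₁ ^ m) x.1, (N₂ ^ m) x.2) := by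
  induction m with
  | zero => intro x; simp
  | succ m ih => intro x; rw [pow_succ', Module.End.mul_apply, ih, pow_succ', pow_succ']; simp

theorem finrank_submodule_prod [FiniteDimensional F V] [FiniteDimensional F V']
    (A : Submodule F V) (B : Submodule F V') : finrank F (A.prod B) = finrank F A + finrank F B := by
  have h : A.prod B = LinearMap.range (A.subtype.prodMap B.subtype) := by
    rw [LinearMap.range_prodMap, Submodule.range_subtype, Submodule.range_subtype]
  rw [h, LinearMap.finrank_range_of_inj, Module.finrank_prod]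
  exact Function.Injective.prodMap A.injective_subtype B.injective_subtype

theorem hasType_prodMap [FiniteDimensional F V] [FiniteDimensional F V'] {f : Module.End F V}
    {g : Module.End F V'} {μ ν : Multiset ℕ} (hf : HasType f μ) (hg : HasType g ν) :
    HasType (f.prodMap g : Module.End F (V × V')) (μ + ν) := by
  have e : (f.prodMap g : Module.End F (V × V')) - 1 = (f - 1).prodMap (g - 1) :=
    LinearMap.ext fun x => by simp [Prod.ext_iff]
  obtain ⟨p, hp⟩ := hf.1
  obtain ⟨q, hq⟩ := hg.1
  refine ⟨⟨p + q, LinearMap.ext fun x => ?_⟩, fun k => ?_⟩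
  · rw [e, prodMap_pow, pow_eq_zero_of_le (Nat.le_add_right p q) hp,
      pow_eq_zero_of_le (Nat.le_add_left q p) hq]
    simp [Prod.ext_iff]
  · rw [e, layerDim]
    have hs : layerSpace ((f - 1).prodMap (g - 1)) ⊤ k =
        (layerSpace (f - 1) ⊤ k).prod (layerSpace (g - 1) ⊤ k) := by
      ext ⟨a, b⟩
      constructor
      · rintro ⟨u, ⟨-, hu⟩, hab⟩
        rw [prodMap_pow] at hab
        have hu' : ((f - 1).prodMap (g - 1) ^ (k + 1)) u = 0 := hu
        rw [prodMap_pow] at hu'
        obtain ⟨rfl, rfl⟩ := Prod.ext_iff.1 hab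
        exact ⟨⟨u.1, ⟨trivial, (Prod.ext_iff.1 hu').1⟩, rfl⟩, ⟨u.2, ⟨trivial, (Prod.ext_iff.1 hu').2⟩, rfl⟩⟩
      · rintro ⟨⟨u, ⟨-, hu⟩, rfl⟩, ⟨w, ⟨-, hw⟩, rfl⟩⟩
        refine ⟨(u, w), ⟨trivial, ?_⟩, prodMap_pow _ _ _ _⟩
        show ((f - 1).prodMap (g - 1) ^ (k + 1)) (u, w) = 0
        rw [prodMap_pow]
        exact Prod.ext hu hw
    rw [hs, finrank_submodule_prod, Multiset.countP_add, ← hf.2 k, ← hg.2 k]
    rfl

/-- A regular nilpotent map has one block. -/
theorem hasType_singleton [FiniteDimensional F V] {f : Module.End F V} {n : ℕ}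
    (hn : finrank F V = n) (h0 : (f - 1) ^ n = 0)
    (hr : finrank F (LinearMap.range (f - 1)) + 1 = n) : HasType f {n} := by
  refine ⟨⟨n, h0⟩, fun k => ?_⟩
  set N := f - 1
  have hanti : ∀ i, layerDim N ⊤ i ≤ layerDim N ⊤ 0 := by
    intro i
    induction i with
    | zero => exact le_rfl
    | succ i ih => exact (Elusive.layerDim_succ_le (W := ⊤) (fun _ _ => trivial) i).trans ih
  have h1 : layerDim N ⊤ 0 = 1 := by
    have h := Elusive.sum_layerDim N ⊤ 1
    rw [Finset.sum_range_one, pow_one, top_inf_eq] at h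
    have := LinearMap.finrank_range_add_finrank_ker N
    omega
  have hsum := Elusive.sum_layerDim N ⊤ n
  rw [h0, LinearMap.ker_zero, inf_top_eq, finrank_top, hn] at hsum
  rw [Multiset.countP_eq_card_filter, Multiset.filter_singleton]
  split_ifs with hk
  · have hle : ∀ i ∈ Finset.range n, layerDim N ⊤ i ≤ 1 := fun i _ => h1 ▸ hanti i
    have heq : ∑ i ∈ Finset.range n, layerDim N ⊤ i = ∑ _i ∈ Finset.range n, 1 := by
      rw [hsum, Finset.sum_const, Finset.card_range, smul_eq_mul, mul_one]
    rw [(Finset.sum_eq_sum_iff_of_le hle).1 heq k (Finset.mem_range.2 hk), Multiset.card_singleton]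
  · rw [layerDim_eq_zero_of_pow h0 (not_lt.1 hk)]
    simp

/-- Alternating or symmetric. -/
def Good (alt : Bool) (B : BilinForm F V) : Prop :=
  cond alt B.IsAlt B.IsSymm

variable (F) in
/-- The block sizes `μ` occur for an isometry of a non-degenerate form. -/
def FormType (alt : Bool) (μ : Multiset ℕ) : Prop :=
  ∃ (n : ℕ) (B : BilinForm F (Fin n → F)) (f : Module.End F (Fin n → F)),
    Good alt B ∧ B.Nondegenerate ∧ (∀ u v, B (f u) (f v) = B u v) ∧ HasType f μ

theorem formType_mk [FiniteDimensional F V] {alt : Bool} {B : BilinForm F V} {f : Module.End F V}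
    {μ : Multiset ℕ} (hG : Good alt B) (hB : B.Nondegenerate)
    (hf : ∀ u v, B (f u) (f v) = B u v) (ht : HasType f μ) : FormType F alt μ := by
  let e : V ≃ₗ[F] (Fin (finrank F V) → F) := (Module.finBasis F V).equivFun
  refine ⟨finrank F V, B.compl₁₂ e.symm.toLinearMap e.symm.toLinearMap,
    e.toLinearMap ∘ₗ f ∘ₗ e.symm.toLinearMap, ?_, ?_, fun u v => by simp [hf],
    hasType_conj e (fun v => by simp) ht⟩
  · cases alt
    · exact ⟨fun u v => LinearMap.BilinForm.IsSymm.eq hG (e.symm u) (e.symm v)⟩
    · exact fun u => LinearMap.IsAlt.self_eq_zero (B := B) hG (e.symm u)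
  · constructor
    · intro u hu
      refine e.symm.map_eq_zero_iff.1 (hB.1 _ fun v => ?_)
      simpa using hu (e v)
    · intro u hu
      refine e.symm.map_eq_zero_iff.1 (hB.2 _ fun v => ?_)
      simpa using hu (e v)

theorem formType_zero (alt : Bool) : FormType F alt 0 := by
  refine ⟨0, 0, 1, ?_, ⟨fun u _ => Subsingleton.elim _ _, fun u _ => Subsingleton.elim _ _⟩,
    fun u v => by simp, ⟨1, by simp⟩, fun k => ?_⟩
  · cases alt
    · exact ⟨fun u v => by simp⟩
    · exact fun u => by simp
  · have := Submodule.finrank_le (layerSpace ((1 : Module.End F (Fin 0 → F)) - 1) ⊤ k)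
    rw [Module.finrank_fin_fun] at this
    simp only [layerDim, Multiset.countP_zero]
    omega

theorem formType_add {alt : Bool} {μ ν : Multiset ℕ} (hμ : FormType F alt μ)
    (hν : FormType F alt ν) : FormType F alt (μ + ν) := by
  obtain ⟨n, B, f, hG, hB, hf, ht⟩ := hμ
  obtain ⟨m, C, g, hH, hC, hg, hs⟩ := hν
  let D : BilinForm F ((Fin n → F) × (Fin m → F)) :=
    B.compl₁₂ (LinearMap.fst F _ _) (LinearMap.fst F _ _) +
      C.compl₁₂ (LinearMap.snd F _ _) (LinearMap.snd F _ _)
  have hD : ∀ x y, D x y = B x.1 y.1 + C x.2 y.2 := fun x y => rfl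
  refine formType_mk (B := D) (f := f.prodMap g) ?_ ?_ (fun u v => by simp [hD, hf, hg])
    (hasType_prodMap ht hs)
  · cases alt
    · exact ⟨fun u v => by
        rw [hD, hD]
        exact congrArg₂ (· + ·) (LinearMap.BilinForm.IsSymm.eq hG _ _) (LinearMap.BilinForm.IsSymm.eq hH _ _)⟩
    · intro u
      rw [hD, LinearMap.IsAlt.self_eq_zero (B := B) hG, LinearMap.IsAlt.self_eq_zero (B := C) hH, add_zero]
  · constructor
    · intro u hu
      refine Prod.ext (hB.1 _ fun v => ?_) (hC.1 _ fun v => ?_)
      · simpa [hD] using hu (v, 0)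
      · simpa [hD] using hu (0, v)
    · intro u hu
      refine Prod.ext (hB.2 _ fun v => ?_) (hC.2 _ fun v => ?_)
      · simpa [hD] using hu (v, 0)
      · simpa [hD] using hu (0, v)

/-- Two blocks of the same size fit a hyperbolic space. -/
theorem formType_pair (alt : Bool) {j : ℕ} (hj : 1 ≤ j) : FormType F alt {j, j} := by
  obtain ⟨N, hN, hNp⟩ := Elusive.exists_nilpotent_model F ({j} : Multiset ℕ)
  have hd : finrank F (Fin ({j} : Multiset ℕ).sum → F) = j := by
    rw [Module.finrank_fin_fun, Multiset.sum_singleton]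
  have h0 : N ^ j = 0 := hNp j fun b hb => (Multiset.mem_singleton.1 hb).le
  have hr : finrank F (LinearMap.range N) + 1 = j := by
    have h := Elusive.sum_layerDim N ⊤ 1
    rw [Finset.sum_range_one, pow_one, top_inf_eq, hN] at h
    have := LinearMap.finrank_range_add_finrank_ker N
    have h' : ({j} : Multiset ℕ).countP (fun b => 0 < b) = 1 :=
      (Multiset.countP_eq_card.2 fun b hb => by rw [Multiset.mem_singleton.1 hb]; omega).trans
        (Multiset.card_singleton j)
    omega
  obtain ⟨g, hg⟩ := IsNilpotent.isUnit_one_add (r := N) ⟨j, h0⟩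
  have hgt : HasType (g : Module.End F (Fin ({j} : Multiset ℕ).sum → F)) {j} :=
    hasType_singleton hd (by rw [hg, add_sub_cancel_left, h0]) (by rw [hg, add_sub_cancel_left]; exact hr)
  set h : Module.End F (Fin ({j} : Multiset ℕ).sum → F) := ↑g⁻¹ with hh
  have hdual : HasType (h.dualMap : Module.End F (Module.Dual F (Fin ({j} : Multiset ℕ).sum → F))) {j} := by
    have e1 : h - 1 = -(h * N) := by
      have : h * (1 + N) = 1 := by rw [← hg]; exact g.inv_mul
      rw [mul_add, mul_one] at this
      exact eq_neg_of_add_eq_zero_left (by rw [sub_add_eq_add_sub, this, sub_self])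
    have hc : Commute h N := Commute.units_inv_left (by
      rw [hg]; exact (Commute.one_left N).add_left (Commute.refl N))
    have h0' : (h - 1) ^ j = 0 := by
      rw [e1, ← neg_one_mul (h * N), Commute.mul_pow (Commute.neg_one_left _), hc.mul_pow, h0, mul_zero, mul_zero]
    have e2 : (h.dualMap : Module.End F (Module.Dual F (Fin ({j} : Multiset ℕ).sum → F))) - 1 = (h - 1).dualMap :=
      LinearMap.ext fun φ => LinearMap.ext fun v => by simp [LinearMap.dualMap_apply]
    refine hasType_singleton (Subspace.dual_finrank_eq.trans hd) ?_ ?_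
    · have hp : ∀ (i : ℕ) φ v, (((h - 1).dualMap : Module.End F (Module.Dual F _)) ^ i) φ v = φ (((h - 1) ^ i) v) := by
        intro i
        induction i with
        | zero => intro φ v; simp
        | succ i ih =>
          intro φ v
          rw [pow_succ', Module.End.mul_apply, LinearMap.dualMap_apply, ih, ← Module.End.mul_apply, ← pow_succ]
      rw [e2]
      exact LinearMap.ext fun φ => LinearMap.ext fun v => by rw [hp, h0']; simp
    · rw [e2, LinearMap.finrank_range_dualMap_eq_finrank_range, e1, LinearMap.range_neg,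
        Module.End.mul_eq_comp, LinearMap.range_comp]
      rw [← (Submodule.equivMapOfInjective h ((Module.End.isUnit_iff _).1 g⁻¹.isUnit).1 _).finrank_eq]
      exact hr
  let U := Fin ({j} : Multiset ℕ).sum → F
  let c : F := cond alt (-1) 1
  let ev : BilinForm F (U × Module.Dual F U) :=
    (LinearMap.id : Module.Dual F U →ₗ[F] Module.Dual F U).compl₁₂
      (LinearMap.snd F U _) (LinearMap.fst F U _)
  let D : BilinForm F (U × Module.Dual F U) := ev + c • ev.flip
  have hD : ∀ x y, D x y = x.2 y.1 + c * y.2 x.1 := fun x y => rfl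
  have hc0 : c ≠ 0 := by cases alt <;> simp [c]
  refine formType_mk (B := D) (f := (g : Module.End F U).prodMap h.dualMap) ?_ ?_ ?_
    (hasType_prodMap hgt hdual)
  · cases alt
    · exact ⟨fun x y => by simp [hD, c, add_comm]⟩
    · exact fun x => by simp [hD, c]
  · have sep1 : ∀ u : U, (∀ φ : Module.Dual F U, φ u = 0) → u = 0 := fun u hu =>
      (Module.forall_dual_apply_eq_zero_iff F u).1 hu
    constructor
    · intro x hx
      refine Prod.ext (sep1 _ fun φ => ?_) (LinearMap.ext fun v => ?_)
      · simpa [hD, hc0] using hx (0, φ)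
      · simpa [hD] using hx (v, 0)
    · intro x hx
      refine Prod.ext (sep1 _ fun φ => ?_) (LinearMap.ext fun v => ?_)
      · simpa [hD] using hx (0, φ)
      · simpa [hD, hc0] using hx (v, 0)
  · intro x y
    have key : ∀ u, h ((g : Module.End F U) u) = u := fun u => by
      rw [hh, ← Module.End.mul_apply, Units.inv_mul, Module.End.one_apply]
    simp [hD, LinearMap.dualMap_apply, key]

/-- A block of even size fits a symplectic space. -/
theorem formType_even {r : ℕ} (hr : 1 ≤ r) : FormType F true {2 * r} := by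
  obtain ⟨u, -, hnil, hrank⟩ := exists_sympRegular_data (F := F) hr
  refine formType_mk (B := Forms.sympBil r F) (f := Matrix.toLin' (u : Matrix (Fin r ⊕ Fin r) (Fin r ⊕ Fin r) F))
    (Forms.sympBil_isAlt) (Forms.sympBil_nondegenerate) (fun a b => ?_) ?_
  · rw [Forms.sympBil_apply, Forms.sympBil_apply, Matrix.toLin'_apply, Matrix.toLin'_apply]
    exact Forms.mem_symplecticGroup_iff_sympForm.1 u.2 a b
  · have e : Matrix.toLin' (u : Matrix (Fin r ⊕ Fin r) (Fin r ⊕ Fin r) F) - 1 = Matrix.toLinAlgEquiv' ((u : Matrix (Fin r ⊕ Fin r) (Fin r ⊕ Fin r) F) - 1) := by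
      rw [map_sub, map_one]; rfl
    refine hasType_singleton (by rw [Module.finrank_fintype_fun_eq_card, Fintype.card_sum, Fintype.card_fin]; omega) ?_ ?_
    · rw [e, ← map_pow, hnil, map_zero]
    · rw [e]
      have : finrank F (LinearMap.range (Matrix.toLinAlgEquiv' ((u : Matrix (Fin r ⊕ Fin r) (Fin r ⊕ Fin r) F) - 1))) =
          ((u : Matrix (Fin r ⊕ Fin r) (Fin r ⊕ Fin r) F) - 1).rank := rfl
      rw [this, hrank]
      omega

/-- A block of odd size fits an orthogonal space in odd characteristic. -/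
theorem formType_odd (h2 : (2 : F) ≠ 0) {j : ℕ} (hj : Odd j) : FormType F false {j} := by
  classical
  let sz : Fin 1 → ℕ := fun _ => j
  have hc : ∀ b : Fin 1, (1 : Fin 1 → F) (id b) = (-1) ^ (sz b + 1) * (1 : Fin 1 → F) b := fun b => by
    simp only [Pi.one_apply, mul_one]
    exact (Even.neg_one_pow hj.add_one).symm
  set B := Elusive25.blockForm sz id (fun _ => rfl) (1 : Fin 1 → F)
  set N := Elusive25.blockShift F sz with hN
  have hN0 : N ^ j = 0 := Elusive25.blockShift_pow_eq_zero sz fun _ => le_rfl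
  obtain ⟨a, ha⟩ := IsNilpotent.isUnit_one_sub (r := N) ⟨j, hN0⟩
  have hcm : Commute (↑a⁻¹ : Module.End F ((Σ b, Fin (sz b)) → F)) N :=
    Commute.units_inv_left (by rw [ha]; exact (Commute.one_left N).sub_left (Commute.refl N))
  let U : Module.End F ((Σ b, Fin (sz b)) → F) := (2 : F) • (↑a⁻¹ : Module.End F ((Σ b, Fin (sz b)) → F))
  have hcU : Commute U N := hcm.smul_left _
  have hf1 : (1 + N) * (↑a⁻¹ : Module.End F ((Σ b, Fin (sz b)) → F)) - 1 = U * N := by
    have h1 : (1 + N) * (↑a⁻¹ : Module.End F ((Σ b, Fin (sz b)) → F)) - 1 = ((1 + N) - (a : Module.End F _)) * (↑a⁻¹ : Module.End F ((Σ b, Fin (sz b)) → F)) := by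
      rw [sub_mul, Units.mul_inv]
    rw [h1, ha, show (1 + N) - (1 - N) = (2 : F) • N by rw [two_smul]; abel, smul_mul_assoc,
      smul_mul_assoc, hcm.eq]
  refine formType_mk (B := B) (f := (1 + N) * (↑a⁻¹ : Module.End F ((Σ b, Fin (sz b)) → F)))
    (Elusive25.blockForm_isSymm sz id (fun _ => rfl) (fun _ => rfl) _ hc)
    (Elusive25.blockForm_nondegenerate sz id (fun _ => rfl) (fun _ => rfl) _ (fun _ => one_ne_zero) hc)
    (fun u v => ?_) ⟨?_, fun k => ?_⟩
  · have surj : ∀ z, ∃ w, (a : Module.End F ((Σ b, Fin (sz b)) → F)) w = z := fun z =>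
      ⟨((↑a⁻¹ : Module.End F ((Σ b, Fin (sz b)) → F)) : Module.End F _) z, by rw [← Module.End.mul_apply, Units.mul_inv, Module.End.one_apply]⟩
    obtain ⟨u, rfl⟩ := surj u
    obtain ⟨v, rfl⟩ := surj v
    have hcancel : ∀ w, ((1 + N) * (↑a⁻¹ : Module.End F ((Σ b, Fin (sz b)) → F)) : Module.End F _) ((a : Module.End F _) w) = w + N w := fun w => by
      rw [← Module.End.mul_apply, mul_assoc, Units.inv_mul, mul_one, LinearMap.add_apply,
        Module.End.one_apply]
    rw [hcancel, hcancel, ha]
    simp only [LinearMap.sub_apply, Module.End.one_apply, map_add, map_sub, LinearMap.add_apply]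
    linear_combination 2 * Elusive25.blockShift_skew sz id (fun _ => rfl) (1 : Fin 1 → F) u v
  · rw [hf1]
    exact ⟨j, by rw [hcU.mul_pow, hN0, mul_zero]⟩
  · rw [hf1, Elusive25.layerDim_unit_mul ?_ hcU, Elusive25.layerDim_blockShift]
    · rw [Multiset.countP_eq_card_filter, Multiset.filter_singleton, Nat.card_eq_fintype_card,
        Fintype.card_subtype]
      split_ifs with hk <;> simp [sz, hk]
    · exact IsUnit.smul (Units.mk0 (2 : F) h2) (Units.isUnit a⁻¹)

/-- Sufficiency: closed under pairs and one kind of single block. -/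
theorem formType_of_parity {alt : Bool} {good : ℕ → Prop}
    (hgood : ∀ j, 1 ≤ j → good j → FormType F alt {j}) (μ : Multiset ℕ) :
    (∀ b ∈ μ, 1 ≤ b) → (∀ j, 1 ≤ j → ¬ good j → Even (μ.count j)) → FormType F alt μ := by
  induction hcard : Multiset.card μ using Nat.strong_induction_on generalizing μ with
  | _ n ih =>
    intro h1 heven
    rcases eq_or_ne μ 0 with rfl | hne
    · exact formType_zero alt
    obtain ⟨j, hj⟩ := Multiset.exists_mem_of_ne_zero hne
    have hsub : ∀ s : Multiset ℕ, s ≤ μ → s ≠ 0 → (∀ i, 1 ≤ i → ¬ good i → Even (s.count i)) →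
        FormType F alt s → FormType F alt μ := by
      intro s hs hs0 hse hst
      rw [← add_tsub_cancel_of_le hs]
      refine formType_add hst (ih (Multiset.card (μ - s)) ?_ _ rfl (fun b hb => h1 b ?_) fun i hi hgi => ?_)
      · rw [Multiset.card_sub hs, ← hcard]
        have := Multiset.card_pos.2 hs0
        have := Multiset.card_le_card hs
        omega
      · exact Multiset.mem_of_le (Multiset.sub_le_self μ s) hb
      · rw [Multiset.count_sub, Nat.even_sub (Multiset.le_iff_count.1 hs i)]
        exact iff_of_true (heven i hi hgi) (hse i hi hgi)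
    by_cases hg : good j
    · refine hsub {j} (Multiset.singleton_le.2 hj) (Multiset.singleton_ne_zero j) (fun i hi hgi => ?_)
        (hgood j (h1 j hj) hg)
      have : i ≠ j := fun e => hgi (e ▸ hg)
      rw [Multiset.count_singleton, if_neg this]
      exact Even.zero
    · refine hsub {j, j} ?_ (by simp) (fun i _ _ => ?_) (formType_pair alt (h1 j hj))
      · rw [Multiset.le_iff_count]
        intro i
        have := heven j (h1 j hj) hg
        have := Multiset.count_pos.2 hj
        simp only [Multiset.insert_eq_cons, Multiset.count_cons, Multiset.count_singleton]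
        split_ifs with he
        · subst he
          obtain ⟨c, hc⟩ := heven i (h1 i hj) hg
          omega
        · exact Nat.zero_le _
      · simp only [Multiset.insert_eq_cons, Multiset.count_cons, Multiset.count_singleton]
        split_ifs <;> simp

/-- For an isometry of an alternating form the blocks of each odd size come in pairs. -/
theorem even_layerDim_sub_alt [FiniteDimensional F V] {B : BilinForm F V} (hA : B.IsAlt)
    (hB : B.Nondegenerate) {f : Module.End F V} (hiso : ∀ u v, B (f u) (f v) = B u v)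
    {k : ℕ} (hk : Even k) : Even (layerDim (f - 1) ⊤ k - layerDim (f - 1) ⊤ (k + 1)) := by
  set N : Module.End F V := f - 1 with hN
  have hNa : ∀ v, N v = f v - v := fun v => rfl
  have hfN : Commute f N := (Commute.refl f).sub_right (Commute.one_right f)
  have h1 : ∀ j u v, B ((N ^ j) u) v = (-1) ^ j * B ((f ^ j) u) ((N ^ j) v) := by
    intro j
    induction j with
    | zero => intro u v; simp
    | succ j ih =>
      intro u v
      rw [pow_succ', Module.End.mul_apply]
      have e1 : B (N ((N ^ j) u)) v = - B ((N ^ j) (f u)) (N v) := by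
        have : (N ^ j) (f u) = f ((N ^ j) u) := by
          rw [← Module.End.mul_apply, ← Module.End.mul_apply, (hfN.pow_right j).eq]
        rw [this, hNa, hNa, map_sub, LinearMap.sub_apply, map_sub, hiso]
        ring
      rw [e1, ih, ← Module.End.mul_apply, ← pow_succ, ← Module.End.mul_apply, ← pow_succ,
        ← pow_succ' N]
      ring
  let U : Submodule F V := ⊤ ⊓ LinearMap.ker (N ^ (k + 1))
  have hU : ∀ z ∈ U, (N ^ (k + 1)) z = 0 := fun z hz => hz.2
  let ψ : V →ₗ[F] U →ₗ[F] F := B.compl₂ U.subtype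
  have hψ : ∀ z (v : U), ψ z v = B z v := fun z v => rfl
  let γ : U →ₗ[F] U →ₗ[F] F := ψ ∘ₗ (N ^ k) ∘ₗ U.subtype
  have hγ : ∀ u v : U, γ u v = B ((N ^ k) u) v := fun u v => rfl
  have halt : ∀ u, γ u u = 0 := by
    intro u
    rw [hγ]
    obtain ⟨l, rfl⟩ := hk
    rw [pow_add, Module.End.mul_apply, h1]
    set w := (N ^ l) (u : V)
    have hfinj : Function.Injective ⇑f := fun x y h => by
      refine sub_eq_zero.1 (hB.1 _ fun z => ?_)
      rw [← hiso, map_sub, h, sub_self, map_zero, LinearMap.zero_apply]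
    obtain ⟨S, hS, hfl⟩ : ∃ S : Module.End F V, Commute S N ∧ f ^ l = 1 + N * S := by
      clear_value w
      clear h1 γ hγ ψ hψ U hU u
      induction l with
      | zero => exact ⟨0, Commute.zero_left N, by simp⟩
      | succ l ih =>
        obtain ⟨S, hS, e⟩ := ih
        refine ⟨S + 1 + S * N, (hS.add_left (Commute.one_left N)).add_left (hS.mul_left (Commute.refl N)), ?_⟩
        rw [pow_succ, e, show f = 1 + N from (add_sub_cancel 1 f).symm]
        noncomm_ring
    have hflsurj : Function.Surjective ⇑(f ^ l) := by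
      refine LinearMap.surjective_of_injective ?_
      rw [Module.End.coe_pow]
      exact hfinj.iterate l
    have hz : ∀ x, (N ^ (l + l + 1)) x = 0 → B ((N ^ (l + 1)) x) w = 0 := by
      intro x hx
      obtain ⟨x', hx'⟩ := hflsurj ((N ^ (l + 1)) x)
      have e2 := h1 l x' (u : V)
      rw [hx'] at e2
      have e3 : (N ^ l) x' = 0 := by
        apply (hfinj.iterate l)
        rw [← Module.End.coe_pow, map_zero, ← Module.End.mul_apply, (hfN.pow_pow l l).eq,
          Module.End.mul_apply, hx', ← Module.End.mul_apply, ← pow_add, ← add_assoc, hx]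
      rw [e3, LinearMap.map_zero₂] at e2
      exact (mul_eq_zero.1 e2.symm).resolve_left (pow_ne_zero _ (by simp))
    rw [hfl, LinearMap.add_apply, Module.End.one_apply, map_add, LinearMap.add_apply,
      LinearMap.IsAlt.self_eq_zero hA w, zero_add]
    have e4 : (N * S) w = (N ^ (l + 1)) (S (u : V)) := by
      show (N * S) ((N ^ l) (u : V)) = _
      rw [← Module.End.mul_apply, ← Module.End.mul_apply, mul_assoc, (hS.pow_right l).eq, ← mul_assoc,
        ← pow_succ']
    rw [e4, hz (S (u : V)) ?_, mul_zero]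
    rw [← Module.End.mul_apply, ← (hS.pow_right _).eq, Module.End.mul_apply, hU _ u.2, map_zero]
  have hev := CharTwoInvol.even_finrank_range_of_alternating γ halt
  have hrange : LinearMap.range γ = (layerSpace N ⊤ k).map ψ := by
    rw [show γ = ψ ∘ₗ ((N ^ k) ∘ₗ U.subtype) from rfl, LinearMap.range_comp, LinearMap.range_comp,
      Submodule.range_subtype]
    rfl
  have hker : LinearMap.ker ψ = LinearMap.range (N ^ (k + 1)) := by
    have hle : LinearMap.range (N ^ (k + 1)) ≤ LinearMap.ker ψ := by
      rintro _ ⟨w, rfl⟩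
      refine LinearMap.mem_ker.2 (LinearMap.ext fun v => ?_)
      rw [hψ, h1, hU _ v.2, map_zero, mul_zero, LinearMap.zero_apply]
    refine (Submodule.eq_of_le_of_finrank_eq hle ?_).symm
    have hor : LinearMap.ker ψ = B.orthogonal U := by
      ext z
      rw [LinearMap.mem_ker, LinearMap.ext_iff]
      simp only [hψ, LinearMap.zero_apply, Subtype.forall]
      exact forall₂_congr fun v _ => by
        show B z v = 0 ↔ B v z = 0
        exact ⟨fun h => hA.isRefl _ _ h, fun h => hA.isRefl _ _ h⟩
    have := LinearMap.finrank_range_add_finrank_ker (N ^ (k + 1))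
    have hUk : finrank F U = finrank F (LinearMap.ker (N ^ (k + 1))) :=
      (LinearEquiv.ofEq U _ (top_inf_eq _)).finrank_eq
    rw [hor, LinearMap.BilinForm.finrank_orthogonal hB]
    omega
  have hint : layerSpace N ⊤ k ⊓ LinearMap.ker ψ = layerSpace N ⊤ (k + 1) := by
    rw [hker]
    apply le_antisymm
    · rintro z ⟨⟨u, ⟨-, hu⟩, rfl⟩, w, hw⟩
      refine ⟨w, ⟨trivial, ?_⟩, hw⟩
      show (N ^ (k + 1 + 1)) w = 0
      rw [pow_succ', Module.End.mul_apply, hw, ← Module.End.mul_apply, ← pow_succ']
      exact hu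
    · rintro _ ⟨w, ⟨-, hw⟩, rfl⟩
      refine ⟨⟨N w, ⟨trivial, ?_⟩, ?_⟩, w, rfl⟩
      · show (N ^ (k + 1)) (N w) = 0
        rw [← Module.End.mul_apply, ← pow_succ]; exact hw
      · rw [← Module.End.mul_apply, ← pow_succ]
  have h := LinearMap.finrank_range_add_finrank_ker (ψ.domRestrict (layerSpace N ⊤ k))
  rw [LinearMap.range_domRestrict, ← hrange, LinearMap.ker_domRestrict,
    ← LinearEquiv.finrank_eq (Submodule.equivMapOfInjective (layerSpace N ⊤ k).subtype
      (Submodule.injective_subtype _) (Submodule.comap (layerSpace N ⊤ k).subtype (LinearMap.ker ψ))).symm,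
    Submodule.map_comap_subtype, hint] at h
  simp only [layerDim]
  rw [← h, Nat.add_sub_cancel_right]
  exact hev

section matrices

variable {ι κ : Type*} [Fintype ι] [DecidableEq ι] [Fintype κ] [DecidableEq κ]

theorem isConj_of_hasType {M M' : Matrix ι ι F} {μ : Multiset ℕ} (h : HasType (Matrix.toLin' M) μ)
    (h' : HasType (Matrix.toLin' M') μ) : IsConj M M' := by
  obtain ⟨p, hp⟩ := h.1
  obtain ⟨q, hq⟩ := h'.1
  obtain ⟨e, he⟩ := exists_conj_of_layerDim (p := p + q) (pow_eq_zero_of_le (Nat.le_add_right p q) hp)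
    (pow_eq_zero_of_le (Nat.le_add_left q p) hq) fun k => by rw [h.2, h'.2]
  refine ⟨⟨LinearMap.toMatrix' e.toLinearMap, LinearMap.toMatrix' e.symm.toLinearMap, ?_, ?_⟩,
    Matrix.toLin'.injective (LinearMap.ext fun x => ?_)⟩
  · rw [← LinearMap.toMatrix'_comp, LinearEquiv.comp_coe, LinearEquiv.symm_trans_self]
    exact LinearMap.toMatrix'_id
  · rw [← LinearMap.toMatrix'_comp, LinearEquiv.comp_coe, LinearEquiv.self_trans_symm]
    exact LinearMap.toMatrix'_id
  · rw [Matrix.toLin'_mul, Matrix.toLin'_mul, Matrix.toLin'_toMatrix']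
    have := he x
    simp only [LinearMap.sub_apply, Module.End.one_apply, map_sub] at this
    exact sub_left_injective this

theorem hasType_of_isConj {M M' : Matrix ι ι F} {μ : Multiset ℕ} (hc : IsConj M M')
    (h : HasType (Matrix.toLin' M) μ) : HasType (Matrix.toLin' M') μ := by
  obtain ⟨c, hc⟩ := hc
  let E : (ι → F) ≃ₗ[F] (ι → F) :=
    { Matrix.toLin' (c : Matrix ι ι F) with
      invFun := fun v => (↑c⁻¹ : Matrix ι ι F).mulVec v
      left_inv := fun v => by simp [Matrix.mulVec_mulVec]
      right_inv := fun v => by simp [Matrix.mulVec_mulVec] }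
  refine hasType_conj E (fun v => ?_) h
  show M'.mulVec ((c : Matrix ι ι F).mulVec v) = (c : Matrix ι ι F).mulVec (M.mulVec v)
  rw [Matrix.mulVec_mulVec, Matrix.mulVec_mulVec, hc.eq]

theorem hasType_reindex {M : Matrix ι ι F} (e : ι ≃ κ) {μ : Multiset ℕ}
    (h : HasType (Matrix.toLin' M) μ) : HasType (Matrix.toLin' (Matrix.reindex e e M)) μ := by
  refine hasType_conj (LinearEquiv.funCongrLeft F F e.symm) (fun v => ?_) h
  show (M.submatrix e.symm e.symm).mulVec (v ∘ e.symm) = (M.mulVec v) ∘ e.symm
  rw [Matrix.submatrix_mulVec_equiv]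
  simp [Function.comp_assoc]

end matrices

variable {t : ℕ}

theorem hasType_jordanType (d : Fin t → ℕ) :
    HasType (Matrix.toLin' (Cfsg.jordanTypeMatrix d F)) (Finset.univ.val.map d) := by
  classical
  have e : Matrix.toLin' (Cfsg.jordanTypeMatrix d F) - 1 = Elusive25.blockShift F d := by
    rw [jordanTypeMatrix_eq, map_add, Matrix.toLin'_one, ← Module.End.one_eq_id, add_sub_cancel_left]
    refine LinearMap.ext fun v => funext fun x => ?_
    show (jordanShift d).mulVec v x = if (x.2 : ℕ) = 0 then 0 else v ⟨x.1, ⟨x.2 - 1, _⟩⟩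
    simp only [Matrix.mulVec, dotProduct, jordanShift, Matrix.of_apply]
    split_ifs with h0
    · exact Finset.sum_eq_zero fun q _ => by rw [if_neg (by omega), zero_mul]
    · rw [Finset.sum_eq_single (⟨x.1, ⟨(x.2 : ℕ) - 1, by omega⟩⟩ : JIdx d)]
      · rw [if_pos ⟨rfl, by simp only; omega⟩, one_mul]
      · intro q _ hq
        rw [if_neg, zero_mul]
        intro hh
        exact hq (Elusive25.blockExt d hh.1.symm (by simp only; omega))
      · exact fun h => absurd (Finset.mem_univ _) h
  refine ⟨⟨Finset.univ.sup d, ?_⟩, fun k => ?_⟩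
  · rw [e]
    exact Elusive25.blockShift_pow_eq_zero d fun b => Finset.le_sup (Finset.mem_univ b)
  · rw [e, Elusive25.layerDim_blockShift, Multiset.countP_map, Nat.card_eq_fintype_card, Fintype.card_subtype]
    rfl

theorem count_map_univ (d : Fin t → ℕ) (j : ℕ) :
    (Finset.univ.val.map d).count j = (Finset.univ.filter fun k : Fin t => d k = j).card := by
  rw [Multiset.count_map, ← Finset.filter_val, Finset.card_val]
  exact congrArg Finset.card (Finset.filter_congr fun k _ => eq_comm)

theorem sum_map_univ (d : Fin t → ℕ) : (Finset.univ.val.map d).sum = ∑ k, d k := rfl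

theorem formType_alt {μ : Multiset ℕ} (h1 : ∀ b ∈ μ, 1 ≤ b) (h : ∀ j, Odd j → Even (μ.count j)) :
    FormType F true μ := by
  refine formType_of_parity (good := Even) (fun j hj he => ?_) μ h1 fun j _ hne => h j (Nat.not_even_iff_odd.1 hne)
  obtain ⟨r, rfl⟩ := he
  rw [← two_mul]
  exact formType_even (by omega)

theorem formType_symm (h2 : (2 : F) ≠ 0) {μ : Multiset ℕ} (h1 : ∀ b ∈ μ, 1 ≤ b)
    (h : ∀ j, Even j → 0 < j → Even (μ.count j)) : FormType F false μ :=
  formType_of_parity (good := Odd) (fun _ _ ho => formType_odd h2 ho) μ h1 fun j hj hne =>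
    h j (Nat.not_odd_iff_even.1 hne) (by omega)

end Cfsg.Agent.ClassConj.FormTypes
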