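import Cfsg.Agent.Elusive.Unipotent

/-!
Jordan types: nilpotent maps with the same kernel dimensions are similar; classes of elements
of order `p` in general linear groups of characteristic `p`.
-/

set_option autoImplicit false

namespace Cfsg.Agent.ClassConj

open Module

variable {F : Type*} [Field F] {V : Type*} [AddCommGroup V] [Module F V] [FiniteDimensional F V]

/-- The shift on `Fin k → F`. -/
def chainShift (k : ℕ) : Module.End F (Fin k → F) where
  toFun c j := if (j : ℕ) = 0 then 0 else c ⟨(j : ℕ) - 1, by omega⟩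
  map_add' u v := by funext j; simp only [Pi.add_apply]; split_ifs <;> simp
  map_smul' a v := by funext j; simp only [Pi.smul_apply]; split_ifs <;> simp

/-- A longest chain of an invariant subspace with an invariant complement, as a parametrisation. -/
theorem exists_longest_chain {N : Module.End F V} {p : ℕ} (hp : N ^ p = 0) {W : Submodule F V}
    (hW : ∀ v ∈ W, N v ∈ W) (hne : W ≠ ⊥) :
    ∃ (k : ℕ) (R : Submodule F V) (Φ : (Fin k → F) →ₗ[F] V), 0 < k ∧
      (∀ j, (∀ w ∈ W, (N ^ j) w = 0) ↔ k ≤ j) ∧ Function.Injective Φ ∧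
      (∀ c, N (Φ c) = Φ (chainShift k c)) ∧ (∀ u ∈ R, N u ∈ R) ∧
      LinearMap.range Φ ⊔ R = W ∧ Disjoint (LinearMap.range Φ) R := by
  classical
  have hex : ∃ k, ∀ v ∈ W, (N ^ k) v = 0 := ⟨p, fun v _ => by rw [hp]; rfl⟩
  set k := Nat.find hex with hk
  have hkW : ∀ v ∈ W, (N ^ k) v = 0 := Nat.find_spec hex
  have hk0 : 0 < k := by
    rcases Nat.eq_zero_or_pos k with h | h
    · exfalso
      refine hne ((Submodule.eq_bot_iff _).2 fun v hv => ?_)
      have := hkW v hv
      rwa [h, pow_zero] at this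
    · exact h
  obtain ⟨v, hv, hv0⟩ : ∃ v ∈ W, (N ^ (k - 1)) v ≠ 0 := by
    by_contra h
    push Not at h
    have := Nat.find_le (h := hex) h
    omega
  have hiter : ∀ j, ∀ w ∈ W, (N ^ j) w ∈ W := by
    intro j
    induction j with
    | zero => intro w hw; simpa using hw
    | succ j ih => intro w hw; rw [pow_succ', Module.End.mul_apply]; exact hW _ (ih w hw)
  obtain ⟨φ, hφ⟩ := Module.Projective.exists_dual_ne_zero F hv0
  set φ' : V →ₗ[F] F := (φ ((N ^ (k - 1)) v))⁻¹ • φ
  have hφ' : φ' ((N ^ (k - 1)) v) = 1 := inv_mul_cancel₀ hφ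
  let Φ : (Fin k → F) →ₗ[F] V := Fintype.linearCombination F fun j : Fin k => (N ^ (j : ℕ)) v
  let Ψ : V →ₗ[F] (Fin k → F) := LinearMap.pi fun j : Fin k => φ'.comp (N ^ (k - 1 - (j : ℕ)))
  have hzero : ∀ j, k ≤ j → (N ^ j) v = 0 := fun j hj => by
    rw [show j = (j - k) + k by omega, pow_add, Module.End.mul_apply, hkW v hv, map_zero]
  have hinj : Function.Injective (Ψ.comp Φ) := by
    refine (injective_iff_map_eq_zero _).2 fun c hc => ?_
    have key : ∀ m : ℕ, ∀ j : Fin k, (j : ℕ) = m → c j = 0 := by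
      intro m
      induction m using Nat.strong_induction_on with
      | _ m ih =>
        intro j hj
        have h := congrFun hc j
        simp only [Ψ, Φ, LinearMap.comp_apply, LinearMap.pi_apply, Fintype.linearCombination_apply, map_sum,
          map_smul, Pi.zero_apply, smul_eq_mul] at h
        rw [Finset.sum_eq_single j ?_ (fun h => absurd (Finset.mem_univ _) h)] at h
        · rw [← Module.End.mul_apply, ← pow_add, show k - 1 - (j : ℕ) + (j : ℕ) = k - 1 by omega, hφ', mul_one] at h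
          exact h
        · intro l _ hl
          rcases lt_or_gt_of_ne hl with h1 | h1
          · rw [ih (l : ℕ) (hj ▸ h1) l rfl, zero_mul]
          · have h1' : (j : ℕ) < (l : ℕ) := h1
            rw [← Module.End.mul_apply, ← pow_add, hzero _ (by omega), map_zero, mul_zero]
    exact funext fun j => key _ j rfl
  have hΦinj : Function.Injective Φ := by
    rw [LinearMap.coe_comp] at hinj
    exact Function.Injective.of_comp hinj
  have hU : LinearMap.range Φ ≤ W := by
    rintro _ ⟨c, rfl⟩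
    simp only [Φ, Fintype.linearCombination_apply]
    exact sum_mem fun j _ => W.smul_mem _ (hiter _ v hv)
  have hNΦ : ∀ c, N (Φ c) = Φ (chainShift k c) := by
    obtain ⟨l, hl⟩ : ∃ l, k = l + 1 := ⟨k - 1, by omega⟩
    clear_value k
    subst hl
    intro c
    simp only [Φ, Fintype.linearCombination_apply, map_sum, map_smul]
    rw [Fin.sum_univ_castSucc, Fin.sum_univ_succ (f := fun i => chainShift (l + 1) c i • (N ^ (i : ℕ)) v)]
    rw [show chainShift (l + 1) c 0 = 0 from rfl, zero_smul, zero_add, ← Module.End.mul_apply, ← pow_succ',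
      Fin.val_last, hkW v hv, smul_zero, add_zero]
    refine Finset.sum_congr rfl fun i _ => ?_
    rw [← Module.End.mul_apply, ← pow_succ']
    rfl
  refine ⟨k, W ⊓ LinearMap.ker Ψ, Φ, hk0, fun j => ⟨fun h => Nat.find_le h, fun h w hw => ?_⟩, hΦinj, hNΦ,
    fun w hw => ⟨hW w hw.1, ?_⟩, ?_, ?_⟩
  · rw [show j = (j - k) + k by omega, pow_add, Module.End.mul_apply, hkW w hw, map_zero]
  · refine LinearMap.mem_ker.2 (funext fun j => ?_)
    simp only [Ψ, LinearMap.pi_apply, LinearMap.comp_apply, Pi.zero_apply]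
    rw [← Module.End.mul_apply, ← pow_succ]
    rcases Nat.eq_zero_or_pos (j : ℕ) with h | h
    · rw [h, Nat.sub_zero, Nat.sub_add_cancel hk0, hkW w hw.1, map_zero]
    · have := congrFun (LinearMap.mem_ker.1 hw.2) ⟨(j : ℕ) - 1, by omega⟩
      simp only [Ψ, LinearMap.pi_apply, LinearMap.comp_apply, Pi.zero_apply] at this
      rwa [show k - 1 - (j : ℕ) + 1 = k - 1 - ((j : ℕ) - 1) by omega]
  · refine le_antisymm (sup_le hU inf_le_left) fun w hw => ?_
    obtain ⟨c, hc⟩ := (LinearMap.injective_iff_surjective.1 hinj) (Ψ w)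
    rw [LinearMap.comp_apply] at hc
    have : w = Φ c + (w - Φ c) := (add_sub_cancel _ _).symm
    rw [this]
    refine Submodule.add_mem_sup ⟨c, rfl⟩ ⟨sub_mem hw (hU ⟨c, rfl⟩), LinearMap.mem_ker.2 ?_⟩
    rw [map_sub, hc, sub_self]
  · refine Submodule.disjoint_def.2 ?_
    rintro _ ⟨c, rfl⟩ ⟨-, hc⟩
    have : c = 0 := hinj (by rw [LinearMap.comp_apply, map_zero]; exact LinearMap.mem_ker.1 hc)
    rw [this, map_zero]

/-- The dimension of the kernel of a power on a subspace. -/
noncomputable def kdim (N : Module.End F V) (W : Submodule F V) (j : ℕ) : ℕ :=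
  finrank F ↥(W ⊓ LinearMap.ker (N ^ j))

theorem kdim_sup {N : Module.End F V} {A B : Submodule F V} (hA : ∀ v ∈ A, N v ∈ A)
    (hB : ∀ v ∈ B, N v ∈ B) (hd : Disjoint A B) (j : ℕ) :
    kdim N (A ⊔ B) j = kdim N A j + kdim N B j := by
  have h : (A ⊔ B) ⊓ LinearMap.ker (N ^ j) = (A ⊓ LinearMap.ker (N ^ j)) ⊔ (B ⊓ LinearMap.ker (N ^ j)) := by
    refine le_antisymm ?_ (sup_le (inf_le_inf_right _ le_sup_left) (inf_le_inf_right _ le_sup_right))
    rintro x ⟨hx, hx0⟩
    obtain ⟨a, ha, b, hb, rfl⟩ := Submodule.mem_sup.1 hx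
    have h0 : (N ^ j) a + (N ^ j) b = 0 := by rw [← map_add]; exact hx0
    have ha0 : (N ^ j) a = 0 := Submodule.disjoint_def.1 hd _ (Elusive.pow_mem_of_invariant hA j a ha)
      (by rw [eq_neg_of_add_eq_zero_left h0]; exact neg_mem (Elusive.pow_mem_of_invariant hB j b hb))
    rw [ha0, zero_add] at h0
    exact Submodule.add_mem_sup ⟨ha, ha0⟩ ⟨hb, h0⟩
  have h2 := Submodule.finrank_sup_add_finrank_inf_eq (A ⊓ LinearMap.ker (N ^ j)) (B ⊓ LinearMap.ker (N ^ j))
  rw [(hd.mono inf_le_left inf_le_left).eq_bot, finrank_bot, add_zero, ← h] at h2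
  exact h2

theorem kdim_chain {N : Module.End F V} {k : ℕ} {Φ : (Fin k → F) →ₗ[F] V} (hΦ : Function.Injective Φ)
    (hN : ∀ c, N (Φ c) = Φ (chainShift k c)) (j : ℕ) :
    kdim N (LinearMap.range Φ) j = finrank F (LinearMap.ker (chainShift k ^ j : Module.End F (Fin k → F))) := by
  have hj : ∀ i c, (N ^ i) (Φ c) = Φ ((chainShift k ^ i) c) := by
    intro i
    induction i with
    | zero => intro c; simp
    | succ i ih => intro c; rw [pow_succ', Module.End.mul_apply, ih, hN, pow_succ', Module.End.mul_apply]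
  have e : LinearMap.range Φ ⊓ LinearMap.ker (N ^ j) = (LinearMap.ker (chainShift k ^ j : Module.End F (Fin k → F))).map Φ := by
    ext x
    constructor
    · rintro ⟨⟨c, rfl⟩, hc⟩
      refine ⟨c, hΦ ?_, rfl⟩
      rw [← hj, map_zero]; exact hc
    · rintro ⟨c, hc, rfl⟩
      exact ⟨⟨c, rfl⟩, LinearMap.mem_ker.2 (by rw [hj, LinearMap.mem_ker.1 hc, map_zero])⟩
  rw [kdim, e]
  exact (Submodule.equivMapOfInjective Φ hΦ _).finrank_eq.symm

theorem kdim_eq_finrank_iff {N : Module.End F V} {W : Submodule F V} {j : ℕ} :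
    kdim N W j = finrank F W ↔ ∀ w ∈ W, (N ^ j) w = 0 := by
  constructor
  · intro h w hw
    have := Submodule.eq_of_le_of_finrank_eq (inf_le_left : W ⊓ LinearMap.ker (N ^ j) ≤ W) h
    rw [← this] at hw
    exact hw.2
  · intro h
    rw [kdim, inf_eq_left.2 (fun w hw => LinearMap.mem_ker.2 (h w hw))]

variable {V' : Type*} [AddCommGroup V'] [Module F V'] [FiniteDimensional F V']

/-- Equal kernel dimensions give similar nilpotent maps. -/
theorem exists_intertwiner_of_kdim {N : Module.End F V} {N' : Module.End F V'} {p : ℕ} (hp : N ^ p = 0)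
    (hp' : N' ^ p = 0) (W : Submodule F V) (W' : Submodule F V') (hW : ∀ v ∈ W, N v ∈ W)
    (hW' : ∀ v ∈ W', N' v ∈ W') (h : ∀ j, kdim N W j = kdim N' W' j) :
    ∃ f : W →ₗ[F] V', Function.Injective f ∧ LinearMap.range f = W' ∧
      ∀ (w : W) (hw : N (w : V) ∈ W), f ⟨N w, hw⟩ = N' (f w) := by
  induction hn : finrank F W using Nat.strong_induction_on generalizing W W' with
  | _ n ih =>
    subst hn
    have hfin : finrank F W = finrank F W' := by
      have h1 := h p
      rwa [kdim_eq_finrank_iff.2 (fun w _ => by rw [hp]; rfl),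
        kdim_eq_finrank_iff.2 (fun w _ => by rw [hp']; rfl)] at h1
    rcases eq_or_ne W ⊥ with rfl | hne
    · rw [finrank_bot] at hfin
      obtain rfl : W' = ⊥ := Submodule.finrank_eq_zero.1 hfin.symm
      refine ⟨0, fun a b _ => Subsingleton.elim _ _, LinearMap.range_zero, fun w hw => by simp⟩
    have hne' : W' ≠ ⊥ := fun e => hne (Submodule.finrank_eq_zero.1 (by rw [hfin, e, finrank_bot]))
    obtain ⟨k, R, Φ, hk0, hk, hΦ, hNΦ, hR, hsup, hd⟩ := exists_longest_chain hp hW hne
    obtain ⟨k', R', Φ', -, hk', hΦ', hNΦ', hR', hsup', hd'⟩ := exists_longest_chain hp' hW' hne'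
    have hkk : ∀ j, k ≤ j ↔ k' ≤ j := fun j => by
      rw [← hk, ← hk', ← kdim_eq_finrank_iff, ← kdim_eq_finrank_iff, h, hfin]
    obtain rfl : k = k' := le_antisymm ((hkk k').2 le_rfl) ((hkk k).1 le_rfl)
    have hinv : ∀ v ∈ LinearMap.range Φ, N v ∈ LinearMap.range Φ := by
      rintro _ ⟨c, rfl⟩; exact ⟨_, (hNΦ c).symm⟩
    have hinv' : ∀ v ∈ LinearMap.range Φ', N' v ∈ LinearMap.range Φ' := by
      rintro _ ⟨c, rfl⟩; exact ⟨_, (hNΦ' c).symm⟩
    have hlt : finrank F R < finrank F W := by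
      have h1 := Submodule.finrank_sup_add_finrank_inf_eq (LinearMap.range Φ) R
      rw [hsup, hd.eq_bot, finrank_bot, add_zero, LinearMap.finrank_range_of_inj hΦ, finrank_fin_fun] at h1
      omega
    obtain ⟨f, hfinj, hfrange, hfN⟩ := ih _ hlt R R' hR hR' (fun j => by
      have h1 := h j
      rw [← hsup, ← hsup', kdim_sup hinv hR hd, kdim_sup hinv' hR' hd', kdim_chain hΦ hNΦ, kdim_chain hΦ' hNΦ'] at h1
      omega) rfl
    let g : ((Fin k → F) × R) →ₗ[F] V := Φ.coprod R.subtype
    let g' : ((Fin k → F) × R) →ₗ[F] V' := Φ'.coprod f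
    have hgr : LinearMap.range g = W := by
      rw [LinearMap.range_coprod, Submodule.range_subtype, hsup]
    have hgi : Function.Injective g := by
      rw [← LinearMap.ker_eq_bot, LinearMap.ker_coprod_of_disjoint_range _ _ (by rwa [Submodule.range_subtype]),
        LinearMap.ker_eq_bot.2 hΦ, Submodule.ker_subtype, Submodule.prod_bot]
    have hgi' : Function.Injective g' := by
      rw [← LinearMap.ker_eq_bot, LinearMap.ker_coprod_of_disjoint_range _ _ (by rwa [hfrange]),
        LinearMap.ker_eq_bot.2 hΦ', LinearMap.ker_eq_bot.2 hfinj, Submodule.prod_bot]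
    let e : ((Fin k → F) × R) ≃ₗ[F] W := (LinearEquiv.ofInjective g hgi).trans (LinearEquiv.ofEq _ _ hgr)
    refine ⟨g'.comp e.symm.toLinearMap, hgi'.comp e.symm.injective, ?_, fun w hw => ?_⟩
    · rw [LinearMap.range_comp, LinearEquiv.range, Submodule.map_top, LinearMap.range_coprod, hfrange, hsup']
    · obtain ⟨⟨c, r⟩, rfl⟩ := e.surjective w
      have he : ∀ x, ((e x : W) : V) = Φ x.1 + (x.2 : V) := fun x => rfl
      have e1 : (⟨N (e (c, r) : V), hw⟩ : W) = e (chainShift k c, ⟨N (r : V), hR _ r.2⟩) := Subtype.ext (by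
        show N (e (c, r) : V) = ((e (chainShift k c, ⟨N (r : V), hR _ r.2⟩) : W) : V)
        rw [he, map_add, hNΦ, he])
      rw [e1]
      simp only [LinearMap.comp_apply, LinearEquiv.coe_coe, LinearEquiv.symm_apply_apply]
      show Φ' (chainShift k c) + f ⟨N (r : V), hR _ r.2⟩ = N' (Φ' c + f r)
      rw [map_add, hNΦ', hfN]

theorem kdim_top_conj {N : Module.End F V} {N' : Module.End F V'} (e : V ≃ₗ[F] V')
    (he : ∀ x, e (N x) = N' (e x)) (j : ℕ) : kdim N ⊤ j = kdim N' ⊤ j := by
  have hj : ∀ i x, e ((N ^ i) x) = (N' ^ i) (e x) := by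
    intro i
    induction i with
    | zero => intro x; simp
    | succ i ih => intro x; rw [pow_succ', Module.End.mul_apply, he, ih, pow_succ', Module.End.mul_apply]
  rw [kdim, kdim, top_inf_eq, top_inf_eq]
  refine (e.ofSubmodules _ _ ?_).finrank_eq
  ext y
  constructor
  · rintro ⟨x, hx, rfl⟩
    show (N' ^ j) (e x) = 0
    rw [← hj, LinearMap.mem_ker.1 hx, map_zero]
  · intro hy
    refine ⟨e.symm y, e.injective ?_, e.apply_symm_apply y⟩
    rw [hj, e.apply_symm_apply, map_zero]
    exact hy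

theorem layerDim_eq_of_kdim {N : Module.End F V} {N' : Module.End F V'}
    (h : ∀ j, kdim N ⊤ j = kdim N' ⊤ j) (k : ℕ) : Elusive.layerDim N ⊤ k = Elusive.layerDim N' ⊤ k := by
  have h1 := Elusive.sum_layerDim N ⊤ (k + 1)
  have h2 := Elusive.sum_layerDim N' ⊤ (k + 1)
  have h3 := Elusive.sum_layerDim N ⊤ k
  have h4 := Elusive.sum_layerDim N' ⊤ k
  rw [Finset.sum_range_succ] at h1 h2
  have h5 := h k
  have h6 := h (k + 1)
  simp only [kdim] at h5 h6
  omega

/-- Equal layers give similar nilpotent maps. -/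
theorem exists_conj_of_layerDim {N : Module.End F V} {N' : Module.End F V'} {p : ℕ} (hp : N ^ p = 0)
    (hp' : N' ^ p = 0) (h : ∀ k, Elusive.layerDim N ⊤ k = Elusive.layerDim N' ⊤ k) :
    ∃ e : V ≃ₗ[F] V', ∀ x, e (N x) = N' (e x) := by
  obtain ⟨f, hi, hr, hN⟩ := exists_intertwiner_of_kdim hp hp' ⊤ ⊤ (fun _ _ => trivial) (fun _ _ => trivial)
    (fun j => by
      rw [kdim, kdim, ← Elusive.sum_layerDim, ← Elusive.sum_layerDim]
      exact Finset.sum_congr rfl fun k _ => h k)
  refine ⟨Submodule.topEquiv.symm.trans (LinearEquiv.ofBijective f ⟨hi, LinearMap.range_eq_top.1 hr⟩), fun x => ?_⟩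
  exact hN ⟨x, trivial⟩ trivial

omit [FiniteDimensional F V] in
theorem layerDim_eq_zero_of_pow {N : Module.End F V} {p k : ℕ} (hp : N ^ p = 0) (hk : p ≤ k) :
    Elusive.layerDim N ⊤ k = 0 := by
  rw [Elusive.layerDim, Elusive.layerSpace, pow_eq_zero_of_le hk hp, Submodule.map_zero, finrank_bot]

theorem sum_countP_eq (μ : Multiset ℕ) (p : ℕ) (h : ∀ b ∈ μ, b ≤ p) :
    ∑ i ∈ Finset.range p, μ.countP (fun b => i < b) = μ.sum := by
  induction μ using Multiset.induction_on with
  | empty => simp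
  | cons b μ ih =>
    simp only [Multiset.countP_cons, Finset.sum_add_distrib, Multiset.sum_cons]
    rw [ih fun a ha => h a (Multiset.mem_cons_of_mem ha), add_comm, Finset.sum_boole]
    congr 1
    have hb := h b (Multiset.mem_cons_self _ _)
    have e : (Finset.range p).filter (fun i => i < b) = Finset.range b := by
      ext i; simp only [Finset.mem_filter, Finset.mem_range]; omega
    rw [e, Finset.card_range, Nat.cast_id]

/-- The block sizes of a nilpotent map. -/
theorem exists_blockSizes {N : Module.End F V} {p : ℕ} (hp : N ^ p = 0) :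
    ∃ μ : Multiset ℕ, (∀ b ∈ μ, 1 ≤ b ∧ b ≤ p) ∧ μ.sum = finrank F V ∧
      ∀ k, Elusive.layerDim N ⊤ k = μ.countP fun b => k < b := by
  set L := fun k => Elusive.layerDim N ⊤ k
  have hmono : ∀ k, L (k + 1) ≤ L k := fun k => Elusive.layerDim_succ_le (W := ⊤) (fun _ _ => Submodule.mem_top) k
  set μ : Multiset ℕ := ∑ k ∈ Finset.range p, Multiset.replicate (L k - L (k + 1)) (k + 1) with hμ
  have hb : ∀ b ∈ μ, 1 ≤ b ∧ b ≤ p := by
    intro b hb
    obtain ⟨k, hk, hbk⟩ := Multiset.mem_sum.1 hb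
    rw [Multiset.eq_of_mem_replicate hbk]
    have := Finset.mem_range.1 hk
    omega
  have hcp : ∀ m, ∀ s, s ≤ p → (∑ k ∈ Finset.Ico s p, Multiset.replicate (L k - L (k + 1)) (k + 1)).countP
      (fun b => m < b) = L (max m s) := by
    intro m s hs
    induction hd : p - s generalizing s with
    | zero =>
      rw [Finset.Ico_eq_empty (by omega), Finset.sum_empty, Multiset.countP_zero]
      exact (layerDim_eq_zero_of_pow hp (by omega)).symm
    | succ d ih =>
      rw [Finset.sum_eq_sum_Ico_succ_bot (show s < p by omega), Multiset.countP_add, ih (s + 1) (by omega) (by omega)]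
      by_cases hm : m ≤ s
      · rw [Multiset.countP_eq_card.2 (fun b hb => by rw [Multiset.eq_of_mem_replicate hb]; omega),
          Multiset.card_replicate, max_eq_right (by omega : m ≤ s + 1), max_eq_right hm]
        have := hmono s
        omega
      · rw [Multiset.countP_eq_zero.2 (fun b hb => by rw [Multiset.eq_of_mem_replicate hb]; omega),
          max_eq_left (by omega : s + 1 ≤ m), max_eq_left (by omega : s ≤ m), zero_add]
  have hk : ∀ k, L k = μ.countP fun b => k < b := fun k => by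
    rw [hμ, Finset.range_eq_Ico, hcp k 0 (Nat.zero_le _), max_eq_left (Nat.zero_le _)]
  refine ⟨μ, hb, ?_, hk⟩
  rw [← sum_countP_eq μ p fun b h => (hb b h).2, Finset.sum_congr rfl (fun i _ => (hk i).symm),
    Elusive.sum_layerDim, hp, LinearMap.ker_zero, inf_top_eq, finrank_top]

theorem multiset_eq_of_countP {μ ν : Multiset ℕ} (hμ : ∀ b ∈ μ, 1 ≤ b) (hν : ∀ b ∈ ν, 1 ≤ b)
    (h : ∀ k, μ.countP (fun b => k < b) = ν.countP fun b => k < b) : μ = ν := by
  have hc : ∀ (ρ : Multiset ℕ) k, ρ.count (k + 1) + ρ.countP (fun b => k + 1 < b) = ρ.countP fun b => k < b := by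
    intro ρ k
    induction ρ using Multiset.induction_on with
    | empty => simp
    | cons b ρ ih => simp only [Multiset.count_cons, Multiset.countP_cons]; split_ifs <;> omega
  ext b
  rcases b with _ | k
  · rw [Multiset.count_eq_zero.2 fun h0 => by have := hμ 0 h0; omega,
      Multiset.count_eq_zero.2 fun h0 => by have := hν 0 h0; omega]
  · have h1 := hc μ k
    have h2 := hc ν k
    rw [h, h] at h1
    omega

section LinearClasses

variable {p : ℕ} [Fact p.Prime] [CharP F p] {n : ℕ}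

theorem isConj_GL_iff_layerDim (g g' : GL (Fin n) F)
    (hg : ((g : Matrix (Fin n) (Fin n) F) - 1) ^ p = 0) (hg' : ((g' : Matrix (Fin n) (Fin n) F) - 1) ^ p = 0) :
    IsConj g g' ↔ ∀ k, Elusive.layerDim (Matrix.toLinAlgEquiv' ((g : Matrix (Fin n) (Fin n) F) - 1)) ⊤ k
      = Elusive.layerDim (Matrix.toLinAlgEquiv' ((g' : Matrix (Fin n) (Fin n) F) - 1)) ⊤ k := by
  set N := Matrix.toLinAlgEquiv' ((g : Matrix (Fin n) (Fin n) F) - 1)
  set N' := Matrix.toLinAlgEquiv' ((g' : Matrix (Fin n) (Fin n) F) - 1)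
  constructor
  · intro h
    obtain ⟨c, hc⟩ := isConj_iff.1 h
    have hc' : (c : Matrix (Fin n) (Fin n) F) * g = g' * c := congrArg Units.val (mul_inv_eq_iff_eq_mul.1 hc)
    refine layerDim_eq_of_kdim (kdim_top_conj
      ((LinearMap.GeneralLinearGroup.generalLinearEquiv F (Fin n → F)) (Matrix.GeneralLinearGroup.toLin c)) fun x => ?_)
    show (c : Matrix (Fin n) (Fin n) F).mulVec ((((g : Matrix (Fin n) (Fin n) F) - 1)).mulVec x)
      = (((g' : Matrix (Fin n) (Fin n) F) - 1)).mulVec ((c : Matrix (Fin n) (Fin n) F).mulVec x)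
    rw [Matrix.mulVec_mulVec, Matrix.mulVec_mulVec, mul_sub, sub_mul, mul_one, one_mul, hc']
  · intro h
    obtain ⟨e, he⟩ := exists_conj_of_layerDim (N := N) (N' := N') (p := p)
      (by rw [← map_pow, hg, map_zero]) (by rw [← map_pow, hg', map_zero]) h
    have hdet : (LinearMap.toMatrix' e.toLinearMap).det ≠ 0 := by
      rw [LinearMap.det_toMatrix']; exact (LinearEquiv.isUnit_det' e).ne_zero
    refine isConj_iff.2 ⟨Matrix.GeneralLinearGroup.mkOfDetNeZero _ hdet,
      mul_inv_eq_iff_eq_mul.2 (Units.ext (Matrix.ext_iff_mulVec.2 fun x => ?_))⟩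
    have h1 : e (((g : Matrix (Fin n) (Fin n) F) - 1).mulVec x) = ((g' : Matrix (Fin n) (Fin n) F) - 1).mulVec (e x) := he x
    rw [Matrix.sub_mulVec, Matrix.sub_mulVec, Matrix.one_mulVec, Matrix.one_mulVec, map_sub] at h1
    show (LinearMap.toMatrix' e.toLinearMap * (g : Matrix (Fin n) (Fin n) F)).mulVec x
      = ((g' : Matrix (Fin n) (Fin n) F) * LinearMap.toMatrix' e.toLinearMap).mulVec x
    rw [← Matrix.mulVec_mulVec, ← Matrix.mulVec_mulVec, LinearMap.toMatrix'_mulVec, LinearMap.toMatrix'_mulVec]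
    exact sub_left_injective h1

theorem sub_one_pow_eq (g : GL (Fin n) F) :
    ((g : Matrix (Fin n) (Fin n) F) - 1) ^ p = ((g ^ p : GL (Fin n) F) : Matrix (Fin n) (Fin n) F) - 1 := by
  rcases isEmpty_or_nonempty (Fin n) with h | h
  · exact Subsingleton.elim _ _
  · rw [sub_pow_char_of_commute _ (Commute.one_right _), one_pow, Units.val_pow_eq_pow_val]

/-- Classes of elements of order `p` in `GL_n`, characteristic `p`. -/
theorem card_orderP_classes : Nat.card {C : ConjClasses (GL (Fin n) F) // ∃ g : GL (Fin n) F, ConjClasses.mk g = C ∧ orderOf g = p}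
    = (Finset.univ.filter (fun μ : Nat.Partition n => ∀ a ∈ μ.parts, a ≤ p)).card - 1 := by
  classical
  have hp1 : 1 ≤ p := (Fact.out : p.Prime).one_lt.le
  let ones : Nat.Partition n := Nat.Partition.ofSums n (Multiset.replicate n 1) (by simp)
  have hones : ∀ a ∈ ones.parts, a = 1 := fun a ha => by
    simp only [ones, Nat.Partition.ofSums_parts, Multiset.mem_filter] at ha
    exact Multiset.eq_of_mem_replicate ha.1
  have honly : ∀ μ : Nat.Partition n, (∀ a ∈ μ.parts, a ≤ 1) → μ = ones := by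
    intro μ h
    have e : ∀ (ν : Nat.Partition n), (∀ a ∈ ν.parts, a = 1) → ν.parts = Multiset.replicate n 1 := by
      intro ν hν
      have h1 : ν.parts = Multiset.replicate ν.parts.card 1 := Multiset.eq_replicate_card.2 hν
      have h2 := ν.parts_sum
      rw [h1, Multiset.sum_replicate, smul_eq_mul, mul_one] at h2
      rw [h1, h2]
    exact Nat.Partition.ext ((e μ fun a ha => le_antisymm (h a ha) (μ.parts_pos ha)).trans (e ones hones).symm)
  have hmodel : ∀ μ : Nat.Partition n, (∀ a ∈ μ.parts, a ≤ p) →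
      ∃ g : GL (Fin n) F, ((g : Matrix (Fin n) (Fin n) F) - 1) ^ p = 0 ∧
        ∀ k, Elusive.layerDim (Matrix.toLinAlgEquiv' ((g : Matrix (Fin n) (Fin n) F) - 1)) ⊤ k
          = μ.parts.countP fun b => k < b := by
    intro μ hμ
    have aux : ∀ (ρ : Multiset ℕ) (N : ℕ), ρ.sum = N → (∀ a ∈ ρ, a ≤ p) →
        ∃ A : Module.End F (Fin N → F), A ^ p = 0 ∧ ∀ k, Elusive.layerDim A ⊤ k = ρ.countP fun b => k < b := by
      rintro ρ _ rfl hρ
      obtain ⟨A, h1, h2⟩ := Elusive.exists_nilpotent_model F ρ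
      exact ⟨A, h2 p hρ, h1⟩
    obtain ⟨A, hA, hAl⟩ := aux μ.parts n μ.parts_sum hμ
    set M := Matrix.toLinAlgEquiv'.symm A
    have hM : M ^ p = 0 := by rw [← map_pow, hA, map_zero]
    obtain ⟨g, hg⟩ := (show IsNilpotent M from ⟨p, hM⟩).isUnit_one_add
    exact ⟨g, by rw [hg, add_sub_cancel_left, hM], fun k => by
      rw [hg, add_sub_cancel_left, AlgEquiv.apply_symm_apply, hAl]⟩
  choose g hg hgl using hmodel
  let T := {μ : Nat.Partition n // (∀ a ∈ μ.parts, a ≤ p) ∧ μ ≠ ones}
  have hord : ∀ μ : T, orderOf (g μ.1 μ.2.1) = p := by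
    intro μ
    refine orderOf_eq_prime (Units.ext (sub_eq_zero.1 ?_)) fun h1 => μ.2.2 (honly _ fun a ha => ?_)
    · rw [Units.val_one, ← sub_one_pow_eq]; exact hg _ _
    · have h2 := hgl μ.1 μ.2.1 1
      rw [h1, Units.val_one, sub_self, map_zero, layerDim_eq_zero_of_pow (p := 1) (pow_one _) le_rfl] at h2
      by_contra h3
      exact (Nat.pos_iff_ne_zero.1 (Multiset.countP_pos.2 ⟨a, ha, by omega⟩)) h2.symm
  let f : T → {C : ConjClasses (GL (Fin n) F) // ∃ g : GL (Fin n) F, ConjClasses.mk g = C ∧ orderOf g = p} :=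
    fun μ => ⟨ConjClasses.mk (g μ.1 μ.2.1), g μ.1 μ.2.1, rfl, hord μ⟩
  have hf : Function.Bijective f := by
    constructor
    · intro μ ν e
      have h1 := ((isConj_GL_iff_layerDim (p := p) _ _ (hg _ _) (hg _ _)).1
        (ConjClasses.mk_eq_mk_iff_isConj.1 (congrArg Subtype.val e)))
      refine Subtype.ext (Nat.Partition.ext (multiset_eq_of_countP (fun b hb => μ.1.parts_pos hb)
        (fun b hb => ν.1.parts_pos hb) fun k => ?_))
      rw [← hgl μ.1 μ.2.1, ← hgl ν.1 ν.2.1, h1]
    · rintro ⟨C, x, rfl, hx⟩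
      have hxp : ((x : Matrix (Fin n) (Fin n) F) - 1) ^ p = 0 := by
        rw [sub_one_pow_eq, ← hx, pow_orderOf_eq_one, Units.val_one, sub_self]
      obtain ⟨μ, hμb, hμs, hμl⟩ := exists_blockSizes (N := Matrix.toLinAlgEquiv' ((x : Matrix (Fin n) (Fin n) F) - 1))
        (p := p) (by rw [← map_pow, hxp, map_zero])
      rw [finrank_fin_fun] at hμs
      let P : Nat.Partition n := ⟨μ, fun hb => (hμb _ hb).1, hμs⟩
      have hP : ∀ a ∈ P.parts, a ≤ p := fun a ha => (hμb a ha).2
      have hconj : IsConj (g P hP) x := (isConj_GL_iff_layerDim (p := p) _ _ (hg _ _) hxp).2 fun k => by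
        rw [hgl, hμl]
      refine ⟨⟨P, hP, fun hP1 => ?_⟩, Subtype.ext (ConjClasses.mk_eq_mk_iff_isConj.2 hconj)⟩
      have h0 : Matrix.toLinAlgEquiv' ((x : Matrix (Fin n) (Fin n) F) - 1) = 0 := by
        have h1 := hμl 1
        rw [show μ = ones.parts from congrArg Nat.Partition.parts hP1,
          Multiset.countP_eq_zero.2 (fun a ha => by rw [hones a ha]; omega)] at h1
        rw [Elusive.layerDim, Submodule.finrank_eq_zero, Elusive.layerSpace, top_inf_eq, pow_one] at h1
        have h2 : LinearMap.ker ((Matrix.toLinAlgEquiv' ((x : Matrix (Fin n) (Fin n) F) - 1)) ^ 2) ≤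
            LinearMap.ker (Matrix.toLinAlgEquiv' ((x : Matrix (Fin n) (Fin n) F) - 1)) := by
          intro v hv
          have : Matrix.toLinAlgEquiv' ((x : Matrix (Fin n) (Fin n) F) - 1) v ∈ (⊥ : Submodule F (Fin n → F)) :=
            h1 ▸ Submodule.mem_map_of_mem hv
          simpa using this
        set A := Matrix.toLinAlgEquiv' ((x : Matrix (Fin n) (Fin n) F) - 1)
        have h3 : ∀ j v, (A ^ (j + 1)) v = 0 → A v = 0 := by
          intro j
          induction j with
          | zero => intro v hv; rwa [pow_one] at hv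
          | succ j ih =>
            intro v hv
            refine h2 (LinearMap.mem_ker.2 ?_)
            rw [pow_succ, pow_one, Module.End.mul_apply]
            refine ih _ ?_
            rwa [← Module.End.mul_apply, ← pow_succ]
        refine LinearMap.ext fun v => h3 (p - 1) v ?_
        rw [Nat.sub_add_cancel hp1, ← map_pow, hxp, map_zero, LinearMap.zero_apply]
      have hx1 : x = 1 := Units.ext (sub_eq_zero.1 (Matrix.toLinAlgEquiv'.injective (by rw [Units.val_one, h0, map_zero])))
      rw [hx1, orderOf_one] at hx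
      exact (Fact.out : p.Prime).one_lt.ne hx
  rw [← Nat.card_congr (Equiv.ofBijective f hf)]
  have hmem : ones ∈ Finset.univ.filter (fun μ : Nat.Partition n => ∀ a ∈ μ.parts, a ≤ p) :=
    Finset.mem_filter.2 ⟨Finset.mem_univ _, fun a ha => by rw [hones a ha]; exact hp1⟩
  rw [← Finset.card_erase_of_mem hmem, Nat.card_eq_fintype_card, Fintype.card_subtype]
  congr 1
  ext μ
  simp [and_comm]

end LinearClasses

end Cfsg.Agent.ClassConj
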