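import Cfsg.Agent.ClassConj.FormConj
import Cfsg.Prelude.Def_Classical

/-!
Matrix forms of the conjugacy theorems for semisimple symplectic and orthogonal elements.
-/

set_option autoImplicit false

namespace Cfsg.Agent.ClassConj

open Matrix

variable {F : Type*} [Field F] {ι : Type} [Fintype ι] [DecidableEq ι]

/-- An invertible matrix as a linear equivalence. -/
noncomputable def glEquiv (g : GL ι F) : (ι → F) ≃ₗ[F] (ι → F) where
  toFun v := (g : Matrix ι ι F) *ᵥ v
  invFun v := ((g⁻¹ : GL ι F) : Matrix ι ι F) *ᵥ v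
  map_add' := Matrix.mulVec_add _
  map_smul' := Matrix.mulVec_smul _
  left_inv v := by
    show _ *ᵥ (_ *ᵥ v) = v
    rw [mulVec_mulVec, Units.inv_mul, one_mulVec]
  right_inv v := by
    show _ *ᵥ (_ *ᵥ v) = v
    rw [mulVec_mulVec, Units.mul_inv, one_mulVec]

theorem glEquiv_apply (g : GL ι F) (v : ι → F) : glEquiv g v = (g : Matrix ι ι F) *ᵥ v := rfl

theorem glEquiv_iterate (g : GL ι F) (k : ℕ) (v : ι → F) :
    (glEquiv g)^[k] v = ((g ^ k : GL ι F) : Matrix ι ι F) *ᵥ v := by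
  induction k with
  | zero => simp
  | succ k ih =>
    rw [Function.iterate_succ_apply', ih, glEquiv_apply, mulVec_mulVec, pow_succ' g, Units.val_mul]

theorem cast_orderOf_ne_zero {G : Type*} [Monoid G] (p : ℕ) [Fact p.Prime] [CharP F p] {x : G}
    (hx : (orderOf x).Coprime p) : ((orderOf x : ℕ) : F) ≠ 0 := fun h =>
  (Nat.Prime.coprime_iff_not_dvd Fact.out).1 hx.symm ((CharP.cast_eq_zero_iff F p _).1 h)

variable [Finite F] {m : ℕ}

/-- Semisimple elements of the symplectic group conjugate in `GL` are conjugate in `Sp`. -/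
theorem symplectic_isConj_of_isConj (p : ℕ) [Fact p.Prime] [CharP F p]
    (A B : Matrix.symplecticGroup (Fin m) F) (hA : (orderOf A).Coprime p)
    (h : IsConj (A : Matrix (Fin m ⊕ Fin m) (Fin m ⊕ Fin m) F) (B : Matrix (Fin m ⊕ Fin m) (Fin m ⊕ Fin m) F)) :
    IsConj A B := by
  obtain ⟨g, hg⟩ := h
  set a := SympSub.spEquiv m F A
  set b := SympSub.spEquiv m F B
  have hm := cast_orderOf_ne_zero (F := F) p hA
  have hit : ∀ k v, ((a : _ ≃ₗ[F] _))^[k] v = ((SympSub.spEquiv m F (A ^ k)).1) v := fun k v => by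
    induction k with
    | zero => rw [pow_zero, map_one]; rfl
    | succ k ih => rw [Function.iterate_succ_apply', ih, pow_succ', map_mul]; rfl
  obtain ⟨f, hf, hfB⟩ := exists_symplectic_intertwiner (β := Forms.sympBil m F) (β' := Forms.sympBil m F)
    (T := (a : (Fin m ⊕ Fin m → F) ≃ₗ[F] (Fin m ⊕ Fin m → F)))
    (T' := (b : (Fin m ⊕ Fin m → F) ≃ₗ[F] (Fin m ⊕ Fin m → F))) Forms.sympBil_isAlt Forms.sympBil_nondegenerate Forms.sympBil_isAlt
    Forms.sympBil_nondegenerate a.2 b.2 (g := glEquiv (g : GL (Fin m ⊕ Fin m) F))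
    (fun x => by
      simp only [glEquiv_apply]
      rw [SympSub.spEquiv_apply, SympSub.spEquiv_apply, mulVec_mulVec, mulVec_mulVec, hg.eq])
    hm (fun x => by rw [hit, pow_orderOf_eq_one, map_one]; rfl)
  refine isConj_iff.2 ⟨(SympSub.spEquiv m F).symm ⟨f, hfB⟩, (SympSub.spEquiv m F).injective ?_⟩
  rw [map_mul, map_mul, map_inv, MulEquiv.apply_symm_apply, mul_inv_eq_iff_eq_mul]
  exact Subtype.ext (LinearEquiv.ext hf)

variable {n : ℕ}

/-- Elements of odd order prime to the characteristic of an orthogonal group, conjugate in `GL`,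
are conjugate in the orthogonal group. -/
theorem orthogonal_isConj_of_isConj (p : ℕ) [Fact p.Prime] [CharP F p]
    (Q : QuadraticForm F (Fin n → F)) (hQ : (QuadraticMap.polarBilin Q).Nondegenerate)
    (A B : ↥(Cfsg.isometryGroup F ⇑Q)) (hodd : Odd (orderOf A)) (hA : (orderOf A).Coprime p)
    (h : IsConj ((A : GL (Fin n) F) : Matrix (Fin n) (Fin n) F) ((B : GL (Fin n) F) : Matrix (Fin n) (Fin n) F)) :
    IsConj A B := by
  obtain ⟨g, hg⟩ := h
  obtain ⟨f, hfQ, hf⟩ := exists_orthogonal_intertwiner hQ (T := glEquiv (A : GL (Fin n) F))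
    (T' := glEquiv (B : GL (Fin n) F)) (fun x => A.2 x x) (fun x => B.2 x x) (g := glEquiv g)
    (fun x => by simp only [glEquiv_apply, mulVec_mulVec, hg.eq]) hodd
    (cast_orderOf_ne_zero p hA) (fun x => by
      rw [glEquiv_iterate, ← Subgroup.coe_pow, pow_orderOf_eq_one]
      simp)
  have hdet : (LinearMap.toMatrix' f.toLinearMap).det ≠ 0 := by
    rw [LinearMap.det_toMatrix']
    exact (LinearEquiv.isUnit_det' f).ne_zero
  let G := Matrix.GeneralLinearGroup.mkOfDetNeZero _ hdet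
  have hG : ∀ v, (G : Matrix (Fin n) (Fin n) F) *ᵥ v = f v := fun v => LinearMap.toMatrix'_mulVec _ v
  refine isConj_iff.2 ⟨⟨G, fun u v => ?_⟩, ?_⟩
  · show Q ((G : Matrix (Fin n) (Fin n) F) *ᵥ u) = Q u
    rw [hG, hfQ]
  · rw [mul_inv_eq_iff_eq_mul]
    refine Subtype.ext (Units.ext (Matrix.ext_iff_mulVec.2 fun v => ?_))
    show ((G : Matrix (Fin n) (Fin n) F) * ((A : GL (Fin n) F) : Matrix (Fin n) (Fin n) F)) *ᵥ v =
      (((B : GL (Fin n) F) : Matrix (Fin n) (Fin n) F) * (G : Matrix (Fin n) (Fin n) F)) *ᵥ v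
    rw [← mulVec_mulVec, ← mulVec_mulVec, hG, hG]
    exact hf v

end Cfsg.Agent.ClassConj
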