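import Cfsg.Agent.ClassConj.KerDecomp

/-!
Classes of involutions of the projective general linear groups in odd characteristic.
-/

set_option autoImplicit false

namespace Cfsg.Agent.ClassConj

open Polynomial Module
open scoped MatrixGroups

variable {F : Type*} [Field F] {n : ℕ}

/-- The endomorphism of a matrix. -/
noncomputable def endOf (g : GL (Fin n) F) : Module.End F (Fin n → F) :=
  Matrix.toLinAlgEquiv' (g : Matrix (Fin n) (Fin n) F)

/-- The dimension of the `-1` eigenspace. -/
noncomputable def minusDim (g : GL (Fin n) F) : ℕ :=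
  finrank F (LinearMap.ker (aeval (endOf g) (X + C 1 : F[X])))

/-- A scalar matrix. -/
abbrev scGL (c : Fˣ) : GL (Fin n) F := Matrix.GeneralLinearGroup.scalar (Fin n) c

theorem endOf_sq {g : GL (Fin n) F} {c : Fˣ} (h : g ^ 2 = scGL c) :
    aeval (endOf g) (X ^ 2 - C (c : F)) = 0 := by
  rw [map_sub, map_pow, aeval_X, aeval_C, endOf, ← map_pow, ← Units.val_pow_eq_pow_val, h, sub_eq_zero,
    ← AlgEquiv.commutes Matrix.toLinAlgEquiv' (c : F)]
  rfl

theorem scGL_mem_center (c : Fˣ) : (scGL c : GL (Fin n) F) ∈ Subgroup.center (GL (Fin n) F) := by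
  rw [Matrix.GeneralLinearGroup.center_eq_range_scalar]; exact ⟨c, rfl⟩

theorem mk_eq_mk_iff_scalar {g h : GL (Fin n) F} :
    (QuotientGroup.mk g : GL (Fin n) F ⧸ Subgroup.center (GL (Fin n) F)) = QuotientGroup.mk h ↔
      ∃ c : Fˣ, g * scGL c = h := by
  rw [QuotientGroup.eq, Matrix.GeneralLinearGroup.center_eq_range_scalar]
  constructor
  · rintro ⟨c, hc⟩; exact ⟨c, by rw [show scGL c = g⁻¹ * h from hc, mul_inv_cancel_left]⟩
  · rintro ⟨c, rfl⟩; exact ⟨c, (inv_mul_cancel_left g _).symm⟩

theorem isConj_mk_iff {g h : GL (Fin n) F} :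
    IsConj (QuotientGroup.mk g : GL (Fin n) F ⧸ Subgroup.center (GL (Fin n) F)) (QuotientGroup.mk h) ↔
      ∃ c : Fˣ, IsConj g (h * scGL c) := by
  constructor
  · intro hc
    obtain ⟨x, hx⟩ := isConj_iff.1 hc
    obtain ⟨x, rfl⟩ := QuotientGroup.mk_surjective x
    have hx' : (QuotientGroup.mk (x * g * x⁻¹) : GL (Fin n) F ⧸ Subgroup.center (GL (Fin n) F)) = QuotientGroup.mk h := hx
    obtain ⟨c, hc⟩ := mk_eq_mk_iff_scalar.1 hx'.symm
    exact ⟨c, isConj_iff.2 ⟨x, hc.symm⟩⟩
  · rintro ⟨c, hc⟩
    have := (QuotientGroup.mk' (Subgroup.center (GL (Fin n) F))).map_isConj hc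
    have e : (QuotientGroup.mk (h * scGL c) : GL (Fin n) F ⧸ Subgroup.center (GL (Fin n) F)) = QuotientGroup.mk h :=
      (mk_eq_mk_iff_scalar.2 ⟨c, rfl⟩).symm
    rwa [QuotientGroup.mk'_apply, QuotientGroup.mk'_apply, e] at this

theorem sq_mul_scalar (g : GL (Fin n) F) (c : Fˣ) : (g * scGL c) ^ 2 = g ^ 2 * scGL (c ^ 2) := by
  rw [(show Commute g (scGL c) from Subgroup.mem_center_iff.1 (scGL_mem_center c) g).mul_pow, scGL, scGL, map_pow]

theorem scGL_injective (hn : 0 < n) : Function.Injective (scGL : Fˣ → GL (Fin n) F) := by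
  intro a b h
  haveI : Nonempty (Fin n) := ⟨⟨0, hn⟩⟩
  exact Units.ext ((Matrix.scalar_inj).1 (congrArg Units.val h))

theorem isCoprime_plus_minus (h2 : (2 : F) ≠ 0) : IsCoprime (X - C 1 : F[X]) (X + C 1) := by
  refine ⟨C (-(2 : F)⁻¹), C ((2 : F)⁻¹), ?_⟩
  have : C ((2 : F)⁻¹) * C (2 : F) = (1 : F[X]) := by rw [← map_mul, inv_mul_cancel₀ h2, map_one]
  have hC : C ((2 : F)⁻¹) * (C (1 : F) + C 1) = 1 := by rw [← map_add, one_add_one_eq_two, this]
  rw [map_neg]
  linear_combination hC

theorem minus_split (h2 : (2 : F) ≠ 0) {g : GL (Fin n) F} (hg : g ^ 2 = 1) :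
    finrank F (LinearMap.ker (aeval (endOf g) (X - C 1 : F[X]))) + minusDim g = n := by
  have h0 : aeval (endOf g) ((X - C 1) * (X + C 1) : F[X]) = 0 := by
    have := endOf_sq (g := g) (c := 1) (by rw [hg, scGL, map_one])
    rw [show ((X - C 1) * (X + C 1) : F[X]) = X ^ 2 - C 1 by rw [map_one]; ring]
    simpa using this
  have := Submodule.finrank_add_eq_of_isCompl (isCompl_ker_aeval (endOf g) (isCoprime_plus_minus h2) h0)
  rwa [finrank_fin_fun] at this

theorem minusDim_neg (h2 : (2 : F) ≠ 0) {g : GL (Fin n) F} (hg : g ^ 2 = 1) :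
    minusDim (g * scGL (-1)) = n - minusDim g := by
  have e : endOf (g * scGL (-1)) = -endOf g := by
    rw [endOf, endOf, Units.val_mul, ← map_neg]
    congr 1
    show (g : Matrix (Fin n) (Fin n) F) * Matrix.scalar (Fin n) ((-1 : Fˣ) : F) = _
    ext i j
    simp [Matrix.mul_diagonal]
  have h := minus_split h2 hg
  have hk : LinearMap.ker (aeval (endOf (g * scGL (-1))) (X + C 1 : F[X])) = LinearMap.ker (aeval (endOf g) (X - C 1 : F[X])) := by
    simp only [e, map_add, map_sub, aeval_X, map_one]
    rw [show -endOf g + 1 = -(endOf g - 1) by abel, LinearMap.ker_neg]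
  rw [minusDim, hk]
  omega

theorem isConj_of_minusDim (h2 : (2 : F) ≠ 0) {g h : GL (Fin n) F} (hg : g ^ 2 = 1) (hh : h ^ 2 = 1)
    (hd : minusDim g = minusDim h) : IsConj g h := by
  have h1 := minus_split h2 hg
  have h3 := minus_split h2 hh
  let f : Bool → F[X] := fun b => if b then X + C 1 else X - C 1
  have hp : ∏ b : Bool, f b = X ^ 2 - C 1 := by
    rw [Fintype.prod_bool]; simp only [f, if_true, Bool.false_eq_true, if_false, map_one]; ring
  obtain ⟨E, hE⟩ := exists_intertwiner_of_kerDims (Finset.univ : Finset Bool) f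
    (fun b _ => by
      cases b
      · exact irreducible_X_sub_C 1
      · simpa [f] using irreducible_X_sub_C (-1 : F))
    (fun a _ b _ hab => by
      cases a <;> cases b <;> first | exact absurd rfl hab | skip
      · exact isCoprime_plus_minus h2
      · exact (isCoprime_plus_minus h2).symm)
    (endOf g) (endOf h)
    (by rw [hp]; simpa using endOf_sq (g := g) (c := 1) (by rw [hg, scGL, map_one]))
    (by rw [hp]; simpa using endOf_sq (g := h) (c := 1) (by rw [hh, scGL, map_one]))
    (fun b _ => by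
      cases b
      · show finrank F (LinearMap.ker (aeval (endOf g) (X - C 1 : F[X]))) = finrank F (LinearMap.ker (aeval (endOf h) (X - C 1 : F[X])))
        omega
      · exact hd)
  exact isConj_GL_of_intertwiner g h E hE

theorem irreducible_sq_sub {μ : F} (hμ : ¬ IsSquare μ) : Irreducible (X ^ 2 - C μ : F[X]) :=
  X_pow_sub_C_irreducible_of_prime Nat.prime_two fun b hb => hμ ⟨b, by rw [← hb, sq]⟩

theorem isConj_of_sq_nonsquare {μ : Fˣ} (hμ : ¬ IsSquare (μ : F)) {g h : GL (Fin n) F} (hg : g ^ 2 = scGL μ)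
    (hh : h ^ 2 = scGL μ) : IsConj g h := by
  obtain ⟨E, hE⟩ := exists_intertwiner_irreducible (irreducible_sq_sub hμ) (endOf_sq hg) (endOf_sq hh) rfl
  exact isConj_GL_of_intertwiner g h E hE

theorem even_of_sq_nonsquare {μ : Fˣ} (hμ : ¬ IsSquare (μ : F)) {g : GL (Fin n) F} (hg : g ^ 2 = scGL μ) : Even n := by
  by_contra hn
  obtain ⟨k, hk⟩ := Nat.not_even_iff_odd.1 hn
  have h := congrArg (fun x : GL (Fin n) F => (x : Matrix (Fin n) (Fin n) F).det) hg
  simp only [Units.val_pow_eq_pow_val, Matrix.det_pow] at h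
  rw [show ((scGL μ : GL (Fin n) F) : Matrix (Fin n) (Fin n) F) = Matrix.diagonal (fun _ => (μ : F)) from rfl,
    Matrix.det_diagonal, Finset.prod_const, Finset.card_univ, Fintype.card_fin,
    show (μ : F) ^ n = (μ : F) ^ (2 * k + 1) from congrArg _ hk] at h
  refine hμ ⟨(g : Matrix (Fin n) (Fin n) F).det / (μ : F) ^ k, ?_⟩
  have hμ0 : (μ : F) ≠ 0 := μ.ne_zero
  rw [div_mul_div_comm, ← sq, h, eq_div_iff (mul_ne_zero (pow_ne_zero _ hμ0) (pow_ne_zero _ hμ0))]
  ring

/-- Classes of involutions in `PGL_n`, odd characteristic. -/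
theorem card_PGL_involution_classes [Fintype F] (h2 : (2 : F) ≠ 0) (hn : 2 ≤ n) :
    Nat.card {C : ConjClasses (GL (Fin n) F ⧸ Subgroup.center (GL (Fin n) F)) //
      ∃ g : GL (Fin n) F ⧸ Subgroup.center (GL (Fin n) F), ConjClasses.mk g = C ∧ orderOf g = 2}
      = n / 2 + (if Even n then 1 else 0) := by
  classical
  obtain ⟨μ0, hμ0⟩ := FiniteField.exists_nonsquare (F := F) (by
    intro h; exact h2 (by have := CharP.cast_eq_zero (R := F) (ringChar F); rw [h] at this; exact_mod_cast this))
  have hμne : μ0 ≠ 0 := fun h => hμ0 (h ▸ IsSquare.zero)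
  let μ : Fˣ := Units.mk0 μ0 hμne
  have hμ : ¬ IsSquare (μ : F) := hμ0
  have hmkU : ∀ {c : Fˣ} {z : Module.End F (Fin n → F)}, aeval z (X ^ 2 - C (c : F)) = 0 →
      ∃ g : GL (Fin n) F, endOf g = z ∧ g ^ 2 = scGL c := by
    intro c z hz
    rw [map_sub, map_pow, aeval_X, aeval_C, sub_eq_zero] at hz
    have hM : (Matrix.toLinAlgEquiv'.symm z) ^ 2 = algebraMap F (Matrix (Fin n) (Fin n) F) (c : F) := by
      rw [← map_pow, hz, AlgEquiv.commutes]
    obtain ⟨g, hg⟩ : IsUnit (Matrix.toLinAlgEquiv'.symm z) :=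
      (isUnit_pow_iff two_ne_zero).1 (by rw [hM]; exact c.isUnit.map _)
    refine ⟨g, by rw [endOf, hg, AlgEquiv.apply_symm_apply], Units.ext ?_⟩
    rw [Units.val_pow_eq_pow_val, hg, hM]
    rfl
  have hsplit : ∀ i : Fin (n / 2), ∃ g : GL (Fin n) F, g ^ 2 = 1 ∧ minusDim g = (i : ℕ) + 1 := by
    intro i
    let f : Bool → F[X] := fun b => if b then X + C 1 else X - C 1
    have hp : ∏ b : Bool, f b = X ^ 2 - C 1 := by
      rw [Fintype.prod_bool]; simp only [f, if_true, Bool.false_eq_true, if_false, map_one]; ring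
    obtain ⟨z, hz, hzd⟩ := exists_end_kerDims (Finset.univ : Finset Bool) f
      (fun b _ => by
        cases b
        · exact X_sub_C_ne_zero 1
        · exact X_add_C_ne_zero 1)
      (fun a _ b _ hab => by
        cases a <;> cases b <;> first | exact absurd rfl hab | skip
        · exact isCoprime_plus_minus h2
        · exact (isCoprime_plus_minus h2).symm)
      (fun b => if b then (i : ℕ) + 1 else n - ((i : ℕ) + 1)) (n := n) (by
        rw [Fintype.sum_bool]
        simp only [f, if_true, Bool.false_eq_true, if_false, natDegree_X_add_C, natDegree_X_sub_C, mul_one]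
        have := i.2; omega)
    rw [hp] at hz
    obtain ⟨g, hgz, hg⟩ := hmkU (c := 1) (z := z) (by simpa using hz)
    refine ⟨g, by rw [hg, scGL, map_one], ?_⟩
    have := hzd true (Finset.mem_univ _)
    simp only [f, if_true, natDegree_X_add_C, mul_one] at this
    rw [minusDim, hgz]
    exact this
  choose gs hgs hgd using hsplit
  have hns : ∀ _u : {_u : Unit // Even n}, ∃ g : GL (Fin n) F, g ^ 2 = scGL μ := by
    intro u
    obtain ⟨k, hk⟩ := u.2
    obtain ⟨z, hz, -⟩ := exists_end_kerDims ({()} : Finset Unit) (fun _ => X ^ 2 - C (μ : F))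
      (fun _ _ => (irreducible_sq_sub hμ).ne_zero) (fun a _ b _ hab => absurd (Subsingleton.elim a b) hab)
      (fun _ => k) (n := n) (by simp; omega)
    rw [Finset.prod_singleton] at hz
    obtain ⟨g, -, hg⟩ := hmkU hz
    exact ⟨g, hg⟩
  choose gn hgn using hns
  have hn0 : 0 < n := by omega
  let rep : Fin (n / 2) ⊕ {_u : Unit // Even n} → GL (Fin n) F := Sum.elim gs gn
  have hord : ∀ i, orderOf (QuotientGroup.mk (rep i) : GL (Fin n) F ⧸ Subgroup.center (GL (Fin n) F)) = 2 := by
    intro i
    refine orderOf_eq_prime ?_ ?_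
    · rw [← QuotientGroup.mk_pow, QuotientGroup.eq_one_iff]
      rcases i with i | i
      · rw [show rep (Sum.inl i) = gs i from rfl, hgs]; exact one_mem _
      · rw [show rep (Sum.inr i) = gn i from rfl, hgn]; exact scGL_mem_center μ
    · intro h1
      rw [QuotientGroup.eq_one_iff, Matrix.GeneralLinearGroup.center_eq_range_scalar] at h1
      obtain ⟨c, hc⟩ := h1
      rcases i with i | i
      · have hsq : scGL (n := n) (c ^ 2) = scGL 1 := by
          rw [scGL, scGL, map_pow, map_one, hc]; exact hgs i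
        have hc2 := congrArg Units.val (scGL_injective hn0 hsq)
        rw [Units.val_pow_eq_pow_val, Units.val_one, sq_eq_one_iff] at hc2
        have hd := hgd i
        have hi := i.2
        have e : endOf (gs i) = algebraMap F (Module.End F (Fin n → F)) (c : F) := by
          rw [endOf, show gs i = scGL c from hc.symm]
          exact AlgEquiv.commutes Matrix.toLinAlgEquiv' (c : F)
        rw [minusDim, e, map_add, aeval_X, aeval_C, ← map_add] at hd
        rcases hc2 with hc2 | hc2
        · rw [hc2, show (1 : F) + 1 = 2 by norm_num] at hd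
          have : LinearMap.ker (algebraMap F (Module.End F (Fin n → F)) 2) = ⊥ :=
            LinearMap.ker_eq_bot.2 fun a b hab => smul_right_injective (Fin n → F) h2 hab
          rw [this, finrank_bot] at hd
          omega
        · rw [hc2, neg_add_cancel, map_zero, LinearMap.ker_zero, finrank_top, finrank_fin_fun] at hd
          omega
      · have hsq : scGL (n := n) (c ^ 2) = scGL μ := by
          rw [scGL, scGL, map_pow, hc]; exact hgn i
        refine hμ ⟨(c : F), ?_⟩
        rw [← sq, ← Units.val_pow_eq_pow_val, scGL_injective hn0 hsq]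
  let f : Fin (n / 2) ⊕ {_u : Unit // Even n} → {C : ConjClasses (GL (Fin n) F ⧸ Subgroup.center (GL (Fin n) F)) //
      ∃ g : GL (Fin n) F ⧸ Subgroup.center (GL (Fin n) F), ConjClasses.mk g = C ∧ orderOf g = 2} :=
    fun i => ⟨ConjClasses.mk (QuotientGroup.mk (rep i)), QuotientGroup.mk (rep i), rfl, hord i⟩
  have hsame : ∀ {a b : GL (Fin n) F} {c : Fˣ}, IsConj a (b * scGL c) → a ^ 2 ∈ Subgroup.center (GL (Fin n) F) →
      a ^ 2 = b ^ 2 * scGL (c ^ 2) := by
    intro a b c h ha
    obtain ⟨x, hx⟩ := isConj_iff.1 h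
    have : (b * scGL c) ^ 2 = a ^ 2 := by
      rw [← hx, conj_pow, Subgroup.mem_center_iff.1 ha x, mul_inv_cancel_right]
    rw [← this, sq_mul_scalar]
  have hf : Function.Bijective f := by
    constructor
    · intro i j hij
      obtain ⟨c, hc⟩ := isConj_mk_iff.1 (ConjClasses.mk_eq_mk_iff_isConj.1 (congrArg Subtype.val hij))
      rcases i with i | i <;> rcases j with j | j
      · have h := hsame hc (by rw [show rep (Sum.inl i) = gs i from rfl, hgs]; exact one_mem _)
        rw [show rep (Sum.inl i) = gs i from rfl, show rep (Sum.inl j) = gs j from rfl, hgs, hgs, one_mul] at h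
        have hc2 := congrArg Units.val (scGL_injective hn0 (a₁ := 1) (a₂ := c ^ 2) (by rw [scGL, map_one]; exact h))
        rw [Units.val_pow_eq_pow_val, Units.val_one, eq_comm, sq_eq_one_iff] at hc2
        have hi := i.2
        have hj := j.2
        refine congrArg Sum.inl (Fin.ext ?_)
        rcases hc2 with hc2 | hc2
        · obtain rfl : c = 1 := Units.ext hc2
          rw [scGL, map_one, mul_one] at hc
          have := kerDims_of_isConj hc (X + C 1 : F[X])
          have h3 : minusDim (gs i) = minusDim (gs j) := this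
          rw [hgd, hgd] at h3
          omega
        · obtain rfl : c = -1 := Units.ext (by rw [hc2, Units.val_neg, Units.val_one])
          have h3 : minusDim (gs i) = minusDim (gs j * scGL (-1)) := kerDims_of_isConj hc (X + C 1 : F[X])
          rw [minusDim_neg h2 (hgs j), hgd, hgd] at h3
          omega
      · exfalso
        have h := hsame hc (by rw [show rep (Sum.inl i) = gs i from rfl, hgs]; exact one_mem _)
        rw [show rep (Sum.inl i) = gs i from rfl, show rep (Sum.inr j) = gn j from rfl, hgs, hgn, scGL, scGL, ← map_mul] at h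
        have hc2 := scGL_injective hn0 (a₁ := 1) (a₂ := μ * c ^ 2) (by rw [scGL, map_one]; exact h)
        refine hμ ⟨((c⁻¹ : Fˣ) : F), ?_⟩
        rw [← sq, ← Units.val_pow_eq_pow_val, inv_pow, ← eq_inv_of_mul_eq_one_left hc2.symm]
      · exfalso
        have h := hsame hc (by rw [show rep (Sum.inr i) = gn i from rfl, hgn]; exact scGL_mem_center μ)
        rw [show rep (Sum.inr i) = gn i from rfl, show rep (Sum.inl j) = gs j from rfl, hgs, hgn, one_mul] at h
        have hc2 := scGL_injective hn0 h
        exact hμ ⟨(c : F), by rw [← sq, ← Units.val_pow_eq_pow_val, hc2]⟩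
      · exact congrArg Sum.inr (Subtype.ext (Subsingleton.elim _ _))
    · rintro ⟨C', x, rfl, hx⟩
      obtain ⟨g, rfl⟩ := QuotientGroup.mk_surjective x
      have hg2 : g ^ 2 ∈ Subgroup.center (GL (Fin n) F) := by
        rw [← QuotientGroup.eq_one_iff, QuotientGroup.mk_pow, ← hx, pow_orderOf_eq_one]
      have hgne : g ∉ Subgroup.center (GL (Fin n) F) := by
        intro hm
        rw [← QuotientGroup.eq_one_iff] at hm
        rw [hm, orderOf_one] at hx
        omega
      rw [Matrix.GeneralLinearGroup.center_eq_range_scalar] at hg2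
      obtain ⟨a, ha⟩ := hg2
      have hfin : ∀ i (c : Fˣ), IsConj (rep i) (g * scGL c) → f i = ⟨ConjClasses.mk (QuotientGroup.mk g), QuotientGroup.mk g, rfl, hx⟩ :=
        fun i c hc => Subtype.ext (ConjClasses.mk_eq_mk_iff_isConj.2 (isConj_mk_iff.2 ⟨c, hc⟩))
      by_cases hsqa : IsSquare (a : F)
      · obtain ⟨c, hc⟩ := hsqa
        have hc0 : c ≠ 0 := fun h => a.ne_zero (by rw [hc, h, mul_zero])
        let cu : Fˣ := (Units.mk0 c hc0)⁻¹
        have hg1 : (g * scGL cu) ^ 2 = 1 := by
          rw [sq_mul_scalar, ← ha, scGL, ← map_mul, ← map_one (Matrix.GeneralLinearGroup.scalar (Fin n))]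
          congr 1
          apply Units.ext
          simp [cu, hc, sq]
          field_simp
        have hk0 : ∀ e : Fˣ, (g * scGL cu * scGL e) ^ 2 = 1 → minusDim (g * scGL cu * scGL e) ≠ 0 := by
          intro e he hz
          have h1 : IsConj (g * scGL cu * scGL e) 1 := by
            refine isConj_of_minusDim h2 he (one_pow 2) ?_
            rw [hz]
            have : LinearMap.ker (aeval (endOf (1 : GL (Fin n) F)) (X + C 1 : F[X])) = ⊥ := by
              rw [map_add, aeval_X, aeval_C, endOf, Units.val_one, map_one, map_one]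
              refine LinearMap.ker_eq_bot.2 fun u v huv => smul_right_injective (Fin n → F) h2 ?_
              simp only [two_smul]
              exact huv
            rw [minusDim, this, finrank_bot]
          have h3 := isConj_one_left.1 h1
          exact hgne (by
            have : g = (scGL cu * scGL e)⁻¹ := eq_inv_of_mul_eq_one_left (by rw [← mul_assoc]; exact h3)
            rw [this]
            exact inv_mem (mul_mem (scGL_mem_center _) (scGL_mem_center _)))
        have hneg : (g * scGL cu * scGL (-1)) ^ 2 = 1 := by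
          rw [sq_mul_scalar, hg1, one_mul, scGL, ← map_one (Matrix.GeneralLinearGroup.scalar (Fin n))]
          congr 1; exact Units.ext (by simp)
        have hlt := minus_split h2 hg1
        have hk1 := hk0 1 (by rw [show scGL (n := n) 1 = 1 from map_one _, mul_one]; exact hg1)
        rw [show scGL (n := n) 1 = 1 from map_one _, mul_one] at hk1
        have hk2 := hk0 (-1) hneg
        rw [minusDim_neg h2 hg1] at hk2
        by_cases hhalf : minusDim (g * scGL cu) ≤ n / 2
        · refine ⟨Sum.inl ⟨minusDim (g * scGL cu) - 1, by omega⟩, hfin _ cu ?_⟩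
          exact isConj_of_minusDim h2 (hgs _) hg1 (by rw [show rep _ = gs _ from rfl, hgd]; simp only; omega)
        · refine ⟨Sum.inl ⟨n - minusDim (g * scGL cu) - 1, by omega⟩, hfin _ (cu * -1) ?_⟩
          rw [show scGL (n := n) (cu * -1) = scGL cu * scGL (-1) from map_mul _ _ _, ← mul_assoc]
          exact isConj_of_minusDim h2 (hgs _) hneg (by
            rw [show rep _ = gs _ from rfl, hgd, minusDim_neg h2 hg1]; simp only; omega)
      · have hq : IsSquare ((μ : F) / (a : F)) := by
          have h1 : quadraticChar F (a : F) = -1 := quadraticChar_neg_one_iff_not_isSquare.2 hsqa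
          have h3 : quadraticChar F (μ : F) = -1 := quadraticChar_neg_one_iff_not_isSquare.2 hμ
          have h4 : quadraticChar F ((μ : F) / (a : F)) * quadraticChar F (a : F) = quadraticChar F (μ : F) := by
            rw [← map_mul, div_mul_cancel₀ _ a.ne_zero]
          rw [h1, h3] at h4
          exact (quadraticChar_one_iff_isSquare (div_ne_zero μ.ne_zero a.ne_zero)).1 (by linarith)
        obtain ⟨c, hc⟩ := hq
        have hc0 : c ≠ 0 := fun h => div_ne_zero μ.ne_zero a.ne_zero (by rw [hc, h, mul_zero])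
        have hg1 : (g * scGL (Units.mk0 c hc0)) ^ 2 = scGL μ := by
          rw [sq_mul_scalar, ← ha, scGL, scGL, ← map_mul]
          congr 1
          apply Units.ext
          simp only [Units.val_mul, Units.val_pow_eq_pow_val, Units.val_mk0]
          rw [sq, ← hc, mul_div_cancel₀ _ a.ne_zero]
        have hev : Even n := even_of_sq_nonsquare hμ hg1
        exact ⟨Sum.inr ⟨(), hev⟩, hfin _ _ (isConj_of_sq_nonsquare hμ (hgn _) hg1)⟩
  rw [← Nat.card_congr (Equiv.ofBijective f hf), Nat.card_sum, Nat.card_fin]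
  congr 1
  split_ifs with h
  · rw [Nat.card_eq_one_iff_unique]
    exact ⟨inferInstance, ⟨⟨(), h⟩⟩⟩
  · haveI : IsEmpty {_u : Unit // Even n} := ⟨fun u => h u.2⟩
    exact Nat.card_of_isEmpty

end Cfsg.Agent.ClassConj
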