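import Cfsg.Agent.ClassConj.KerDecomp

/-!
Classes of semisimple elements of prime order in finite general linear groups.
-/

set_option autoImplicit false

namespace Cfsg.Agent.ClassConj

open Polynomial Module UniqueFactorizationMonoid

variable {F : Type*} [Field F]

theorem card_fun_sum_le {ι : Type*} [Fintype ι] [DecidableEq ι] (N : ℕ) :
    Nat.card {a : ι → ℕ // ∑ j, a j ≤ N} = Nat.choose (N + Fintype.card ι) (Fintype.card ι) := by
  let e : {a : ι → ℕ // ∑ j, a j ≤ N} ≃ {b : Option ι → ℕ // ∑ j, b j = N} :=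
    { toFun := fun a => ⟨fun o => o.elim (N - ∑ j, a.1 j) a.1, by
        rw [Fintype.sum_option]
        simp only [Option.elim]
        have := a.2
        omega⟩
      invFun := fun b => ⟨fun j => b.1 (some j), by
        show ∑ j, b.1 (some j) ≤ N
        have := b.2
        rw [Fintype.sum_option] at this
        omega⟩
      left_inv := fun a => rfl
      right_inv := fun b => Subtype.ext (funext fun o => by
        rcases o with _ | j
        · have := b.2
          rw [Fintype.sum_option] at this
          show N - ∑ j, b.1 (some j) = b.1 none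
          omega
        · rfl) }
  rw [Nat.card_congr (e.trans (Sym.equivNatSumOfFintype (Option ι) N).symm), Nat.card_eq_fintype_card,
    Sym.card_sym_eq_choose, Fintype.card_option, show Fintype.card ι + 1 + N - 1 = N + Fintype.card ι by omega,
    Nat.choose_symm_add]

/-- The roots of an irreducible factor of `X ^ r - 1` other than one generate a field of degree the
order of `q` modulo `r`. -/
theorem natDegree_eq_orderOf [Fintype F] {r : ℕ} (hr : r.Prime) (hq : ((Fintype.card F : ℕ) : ZMod r) ≠ 0)
    {f : F[X]} (hf : Irreducible f) (hdvd : f ∣ X ^ r - 1) (h1 : ¬ f ∣ X - 1) :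
    f.natDegree = orderOf ((Fintype.card F : ℕ) : ZMod r) := by
  haveI : Fact r.Prime := ⟨hr⟩
  haveI : Fact (Irreducible f) := ⟨hf⟩
  haveI : Module.Finite F (AdjoinRoot f) := (AdjoinRoot.powerBasis hf.ne_zero).finite
  haveI : Finite (AdjoinRoot f) := Module.finite_of_finite F
  letI : Fintype (AdjoinRoot f) := Fintype.ofFinite _
  classical
  set q := Fintype.card F
  set i := orderOf ((q : ℕ) : ZMod r)
  set ζ : AdjoinRoot f := AdjoinRoot.root f
  have hcard : Fintype.card (AdjoinRoot f) = q ^ f.natDegree := by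
    rw [Module.card_eq_pow_finrank (K := F), finrank_adjoinRoot hf.ne_zero]
  have hζr : ζ ^ r = 1 := by
    have := AdjoinRoot.mk_eq_zero.2 hdvd
    rw [map_sub, map_pow, map_one, AdjoinRoot.mk_X, sub_eq_zero] at this
    exact this
  have hζ1 : ζ ≠ 1 := fun h => h1 (AdjoinRoot.mk_eq_zero.1 (by
    rw [map_sub, map_one, AdjoinRoot.mk_X]; exact sub_eq_zero.2 h))
  have hord : orderOf ζ = r := orderOf_eq_prime hζr hζ1
  have hd0 : f.natDegree ≠ 0 := hf.natDegree_pos.ne'
  refine le_antisymm ?_ (Nat.le_of_dvd hf.natDegree_pos ?_)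
  · -- the fixed field of `x ↦ x ^ q ^ i` contains the root
    have hi : 0 < i := by
      have : IsOfFinOrder ((q : ℕ) : ZMod r) := IsUnit.isOfFinOrder (Ne.isUnit hq)
      exact this.orderOf_pos
    have hqi : (q ^ i) % r = 1 := by
      have h2 : ((q ^ i : ℕ) : ZMod r) = ((1 : ℕ) : ZMod r) := by
        rw [Nat.cast_pow, pow_orderOf_eq_one, Nat.cast_one]
      rw [ZMod.natCast_eq_natCast_iff'] at h2
      rw [h2, Nat.one_mod_eq_one.2 hr.ne_one]
    have hfix : ∀ x : AdjoinRoot f, x ^ (q ^ i) = x := by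
      obtain ⟨p, hp⟩ := CharP.exists F
      haveI := hp
      haveI : Fact p.Prime := ⟨CharP.char_is_prime F p⟩
      obtain ⟨e, -, hqe⟩ := FiniteField.card F p
      haveI : CharP (AdjoinRoot f) p := charP_of_injective_algebraMap (algebraMap F (AdjoinRoot f)).injective p
      intro x
      induction x using AdjoinRoot.induction_on with
      | ih g =>
        induction g using Polynomial.induction_on' with
        | add a b ha hb =>
          rw [map_add]
          rw [show q = p ^ (e : ℕ) from hqe, ← pow_mul] at *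
          rw [add_pow_char_pow, ha, hb]
        | monomial m c =>
          rw [← C_mul_X_pow_eq_monomial, map_mul, map_pow, AdjoinRoot.mk_X, AdjoinRoot.mk_C, mul_pow, ← map_pow,
            FiniteField.pow_card_pow, ← pow_mul, mul_comm m, pow_mul]
          congr 2
          calc ζ ^ (q ^ i) = ζ ^ (q ^ i % r) := by rw [← hord, pow_mod_orderOf]
            _ = ζ := by rw [hqi, pow_one]
    have hq1 : 1 < q := Fintype.one_lt_card
    have hne : (X ^ (q ^ i) - X : (AdjoinRoot f)[X]) ≠ 0 :=
      FiniteField.X_pow_card_sub_X_ne_zero _ (Nat.one_lt_pow hi.ne' hq1)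
    have hle : (Finset.univ : Finset (AdjoinRoot f)) ⊆ ((X ^ (q ^ i) - X : (AdjoinRoot f)[X])).roots.toFinset := by
      intro x _
      rw [Multiset.mem_toFinset, mem_roots hne, IsRoot, eval_sub, eval_pow, eval_X, hfix, sub_self]
    have h2 := ((Finset.card_le_card hle).trans (Multiset.toFinset_card_le _)).trans (card_roots' _)
    rw [Finset.card_univ, hcard, FiniteField.X_pow_card_sub_X_natDegree_eq _ (Nat.one_lt_pow hi.ne' hq1)] at h2
    exact (Nat.pow_le_pow_iff_right hq1).1 h2
  · rw [orderOf_dvd_iff_pow_eq_one, ← Nat.cast_pow, ← hcard]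
    have hζ0 : ζ ≠ 0 := fun h => by rw [h, zero_pow hr.ne_zero] at hζr; exact zero_ne_one hζr
    have hr1 : r ∣ Fintype.card (AdjoinRoot f) - 1 := hord ▸ orderOf_dvd_of_pow_eq_one (FiniteField.pow_card_sub_one_eq_one ζ hζ0)
    obtain ⟨k, hk⟩ := hr1
    rw [show Fintype.card (AdjoinRoot f) = r * k + 1 by have := Fintype.card_pos (α := AdjoinRoot f); omega]
    simp

open Classical in
/-- The irreducible monic factors of `X ^ r - 1`. -/
theorem exists_factors [Fintype F] {r : ℕ} (hr : r.Prime) (hrF : (r : F) ≠ 0) (hq : ((Fintype.card F : ℕ) : ZMod r) ≠ 0) :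
    ∃ s : Finset F[X], (X - 1 : F[X]) ∉ s ∧ (∀ f ∈ s, Irreducible f) ∧
      (∀ f ∈ s, f.natDegree = orderOf ((Fintype.card F : ℕ) : ZMod r)) ∧
      s.card * orderOf ((Fintype.card F : ℕ) : ZMod r) = r - 1 ∧
      (∀ a ∈ insert (X - 1 : F[X]) s, ∀ b ∈ insert (X - 1 : F[X]) s, a ≠ b → IsCoprime a b) ∧
      ∏ f ∈ insert (X - 1 : F[X]) s, f = X ^ r - 1 := by
  classical
  set P : F[X] := X ^ r - 1
  have hPm : P.Monic := monic_X_pow_sub_C (1 : F) hr.ne_zero |> fun h => by simpa [P] using h
  have hP0 : P ≠ 0 := hPm.ne_zero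
  have hsf : Squarefree P := by
    have := (separable_X_pow_sub_C (1 : F) hrF one_ne_zero).squarefree
    simpa [P] using this
  set M := normalizedFactors P
  have hmon : ∀ f ∈ M, f.Monic := fun f hf => by
    have h := normalize_normalized_factor f hf
    rw [← h]
    exact Polynomial.monic_normalize (irreducible_of_normalized_factor f hf).ne_zero
  have hirr : ∀ f ∈ M, Irreducible f := fun f hf => irreducible_of_normalized_factor f hf
  have hnd : M.Nodup := (squarefree_iff_nodup_normalizedFactors hP0).1 hsf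
  have hprod : M.prod = P := eq_of_monic_of_associated (monic_multiset_prod_of_monic _ id (fun f hf => hmon f hf) |> fun h => by simpa using h) hPm (prod_normalizedFactors hP0)
  have hcop : ∀ a ∈ M, ∀ b ∈ M, a ≠ b → IsCoprime a b := fun a ha b hb hab =>
    (hirr a ha).coprime_iff_not_dvd.2 fun h =>
      hab (eq_of_monic_of_associated (hmon a ha) (hmon b hb) ((hirr a ha).associated_of_dvd (hirr b hb) h))
  have hX1 : (X - 1 : F[X]) ∈ M := by
    have hi : Irreducible (X - 1 : F[X]) := by simpa using irreducible_X_sub_C (1 : F)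
    obtain ⟨g, hg, hgX⟩ := exists_mem_normalizedFactors_of_dvd hP0 hi (by
      simpa [P] using sub_dvd_pow_sub_pow (X : F[X]) 1 r)
    have hm : (X - 1 : F[X]).Monic := by simpa using monic_X_sub_C (1 : F)
    rwa [eq_of_monic_of_associated hm (hmon g hg) hgX]
  set s := M.toFinset.erase (X - 1)
  have hins : insert (X - 1) s = M.toFinset := Finset.insert_erase (Multiset.mem_toFinset.2 hX1)
  have hmem : ∀ f, f ∈ s → f ∈ M := fun f hf => Multiset.mem_toFinset.1 (Finset.mem_of_mem_erase hf)
  have hdeg : ∀ f ∈ s, f.natDegree = orderOf ((Fintype.card F : ℕ) : ZMod r) := fun f hf => by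
    refine natDegree_eq_orderOf hr hq (hirr f (hmem f hf)) (dvd_of_mem_normalizedFactors (hmem f hf)) fun h => ?_
    refine (Finset.mem_erase.1 hf).1 (eq_of_monic_of_associated (hmon f (hmem f hf)) (hmon _ hX1) ?_)
    exact (hirr f (hmem f hf)).associated_of_dvd (hirr _ hX1) h
  have hp : ∏ f ∈ insert (X - 1) s, f = P := by
    rw [hins, Finset.prod_eq_multiset_prod, Multiset.toFinset_val, hnd.dedup, Multiset.map_id', hprod]
  refine ⟨s, Finset.notMem_erase _ _, fun f hf => hirr f (hmem f hf), hdeg, ?_,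
    fun a ha b hb => hcop a (Multiset.mem_toFinset.1 (hins ▸ ha)) b (Multiset.mem_toFinset.1 (hins ▸ hb)), hp⟩
  have h := congrArg natDegree hp
  rw [natDegree_prod _ _ (fun f hf => (hirr f (Multiset.mem_toFinset.1 (hins ▸ hf))).ne_zero),
    Finset.sum_insert (Finset.notMem_erase _ _), Finset.sum_congr rfl hdeg, Finset.sum_const, smul_eq_mul] at h
  have e1 : (X - 1 : F[X]).natDegree = 1 := by simpa using natDegree_X_sub_C (1 : F)
  have e2 : P.natDegree = r := by simpa [P] using natDegree_X_pow_sub_C (n := r) (r := (1 : F))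
  rw [e1, e2] at h
  omega

/-- Number of classes of elements of prime order `r`, prime to the characteristic, in `GL_n`. -/
theorem card_primeOrder_classes [Fintype F] {p : ℕ} [Fact p.Prime] [CharP F p] {n r i t : ℕ} (hr : r.Prime)
    (hrp : r ≠ p) (hi : i = orderOf ((Fintype.card F : ℕ) : ZMod r)) (ht : t * i = r - 1) :
    Nat.card {C : ConjClasses (GL (Fin n) F) // ∃ g : GL (Fin n) F, ConjClasses.mk g = C ∧ orderOf g = r}
      = Nat.choose (n / i + t) t - 1 := by
  classical
  haveI : Fact r.Prime := ⟨hr⟩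
  obtain ⟨e, -, hqe⟩ := FiniteField.card F p
  have hrF : (r : F) ≠ 0 := by
    rw [Ne, CharP.cast_eq_zero_iff F p]
    exact fun h => hrp ((Nat.prime_dvd_prime_iff_eq Fact.out hr).1 h).symm
  have hq : ((Fintype.card F : ℕ) : ZMod r) ≠ 0 := by
    rw [Ne, CharP.cast_eq_zero_iff (ZMod r) r, hqe]
    exact fun h => hrp ((Nat.prime_dvd_prime_iff_eq hr Fact.out).1 (hr.dvd_of_dvd_pow h))
  obtain ⟨s, hX, hirr, hdeg, hcard, hcop, hprod⟩ := exists_factors (F := F) hr hrF hq
  rw [← hi] at hdeg hcard
  have hi0 : 0 < i := by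
    rw [hi]; exact (IsUnit.isOfFinOrder (Ne.isUnit hq)).orderOf_pos
  have hst : s.card = t := Nat.eq_of_mul_eq_mul_right hi0 (hcard.trans ht.symm)
  set S := insert (X - 1 : F[X]) s
  have hirr' : ∀ f ∈ S, Irreducible f := fun f hf => by
    rcases Finset.mem_insert.1 hf with rfl | hf
    · simpa using irreducible_X_sub_C (1 : F)
    · exact hirr f hf
  let y : GL (Fin n) F → Module.End F (Fin n → F) := fun g => Matrix.toLinAlgEquiv' (g : Matrix (Fin n) (Fin n) F)
  have hy : ∀ g : GL (Fin n) F, g ^ r = 1 → aeval (y g) (∏ f ∈ S, f) = 0 := fun g hg => by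
    rw [hprod, map_sub, map_pow, aeval_X, map_one, sub_eq_zero, ← map_pow, ← Units.val_pow_eq_pow_val, hg,
      Units.val_one, map_one]
  have e1 : (X - 1 : F[X]).natDegree = 1 := by simpa using natDegree_X_sub_C (1 : F)
  let T := {a : s → ℕ // ∑ j, a j ≤ n / i}
  have hreal : ∀ a : T, ∃ g : GL (Fin n) F, g ^ r = 1 ∧
      ∀ j : s, finrank F (LinearMap.ker (aeval (y g) (j : F[X]))) = a.1 j * i := by
    intro a
    let b : F[X] → ℕ := fun f => if h : f ∈ s then a.1 ⟨f, h⟩ else n - i * ∑ j, a.1 j
    have hsum : ∑ f ∈ S, b f * f.natDegree = n := by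
      have h1 : ∑ f ∈ s, b f * f.natDegree = (∑ j, a.1 j) * i := by
        rw [Finset.sum_mul, ← Finset.sum_coe_sort s (fun f => b f * f.natDegree)]
        refine Finset.sum_congr rfl fun j _ => ?_
        simp only [b, dif_pos j.2, hdeg j j.2]
      rw [Finset.sum_insert hX, h1, e1, mul_one]
      simp only [b, dif_neg hX]
      have := (Nat.le_div_iff_mul_le hi0).1 a.2
      rw [mul_comm i]
      omega
    obtain ⟨z, hz, hzd⟩ := exists_end_kerDims S id (fun f hf => (hirr' f hf).ne_zero) hcop b hsum
    have hzr : (Matrix.toLinAlgEquiv'.symm z) ^ r = 1 := by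
      rw [show (∏ f ∈ S, id f) = ∏ f ∈ S, f from rfl, hprod, map_sub, map_pow, aeval_X, map_one, sub_eq_zero] at hz
      rw [← map_pow, hz, map_one]
    obtain ⟨g, hg⟩ : IsUnit (Matrix.toLinAlgEquiv'.symm z) := (isUnit_pow_iff hr.ne_zero).1 (by rw [hzr]; exact isUnit_one)
    refine ⟨g, Units.ext (by rw [Units.val_pow_eq_pow_val, hg, hzr, Units.val_one]), fun j => ?_⟩
    have := hzd j (Finset.mem_insert_of_mem j.2)
    simp only [b, id_eq, dif_pos j.2, hdeg j j.2] at this
    show finrank F (LinearMap.ker (aeval (Matrix.toLinAlgEquiv' (g : Matrix (Fin n) (Fin n) F)) (j : F[X]))) = _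
    rw [hg, AlgEquiv.apply_symm_apply]
    exact this
  choose g hgr hgd using hreal
  let zero : T := ⟨0, by simp⟩
  have hdims : ∀ x : GL (Fin n) F, x ^ r = 1 →
      finrank F (LinearMap.ker (aeval (y x) (X - 1 : F[X]))) + ∑ j : s, finrank F (LinearMap.ker (aeval (y x) (j : F[X]))) = n := by
    intro x hx
    have h := sum_finrank_ker S id hcop (y x) (hy x hx)
    rw [finrank_fin_fun, Finset.sum_insert hX, ← Finset.sum_coe_sort s] at h
    exact h.symm
  have hconj : ∀ x x' : GL (Fin n) F, x ^ r = 1 → x' ^ r = 1 →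
      (∀ j : s, finrank F (LinearMap.ker (aeval (y x) (j : F[X]))) = finrank F (LinearMap.ker (aeval (y x') (j : F[X])))) →
      IsConj x x' := by
    intro x x' hx hx' hd
    obtain ⟨E, hE⟩ := exists_intertwiner_of_kerDims S id hirr' hcop (y x) (y x') (hy x hx) (hy x' hx') fun f hf => by
      rcases Finset.mem_insert.1 hf with rfl | hf
      · have h1 := hdims x hx
        have h2 := hdims x' hx'
        rw [Finset.sum_congr rfl (fun j _ => hd j)] at h1
        simp only [id_eq]
        omega
      · exact hd ⟨f, hf⟩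
    exact isConj_GL_of_intertwiner x x' E hE
  have hone : ∀ a : T, g a = 1 ↔ a = zero := by
    intro a
    constructor
    · intro h
      refine Subtype.ext (funext fun j => ?_)
      have h1 := hgd a j
      rw [h] at h1
      have hcp := hcop (X - 1) (Finset.mem_insert_self _ _) (j : F[X]) (Finset.mem_insert_of_mem j.2) (fun e => hX (e ▸ j.2))
      have hd : LinearMap.ker (aeval (y (1 : GL (Fin n) F)) (j : F[X])) = ⊥ := by
        have h2 : LinearMap.ker (aeval (y (1 : GL (Fin n) F)) (X - 1 : F[X])) = ⊤ := by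
          simp [y, Units.val_one]
        have h3 := disjoint_ker_aeval_of_isCoprime (y (1 : GL (Fin n) F)) hcp
        rw [h2] at h3
        exact disjoint_top.1 h3.symm
      rw [hd, finrank_bot] at h1
      exact (mul_eq_zero.1 h1.symm).resolve_right hi0.ne'
    · intro h
      have h1 : IsConj (1 : GL (Fin n) F) (g a) := hconj 1 (g a) (one_pow r) (hgr a) fun j => by
        rw [hgd a j, h, show zero.1 j = 0 from rfl, zero_mul]
        have hcp := hcop (X - 1) (Finset.mem_insert_self _ _) (j : F[X]) (Finset.mem_insert_of_mem j.2) (fun e => hX (e ▸ j.2))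
        have h2 : LinearMap.ker (aeval (y (1 : GL (Fin n) F)) (X - 1 : F[X])) = ⊤ := by
          simp [y, Units.val_one]
        have h3 := disjoint_ker_aeval_of_isCoprime (y (1 : GL (Fin n) F)) hcp
        rw [h2] at h3
        rw [disjoint_top.1 h3.symm, finrank_bot]
      exact isConj_one_right.1 h1
  let f : {a : T // a ≠ zero} → {C : ConjClasses (GL (Fin n) F) // ∃ g : GL (Fin n) F, ConjClasses.mk g = C ∧ orderOf g = r} :=
    fun a => ⟨ConjClasses.mk (g a.1), g a.1, rfl, orderOf_eq_prime (hgr a.1) fun h => a.2 ((hone a.1).1 h)⟩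
  have hf : Function.Bijective f := by
    constructor
    · intro a b h
      refine Subtype.ext (Subtype.ext (funext fun j => ?_))
      have h1 := kerDims_of_isConj (ConjClasses.mk_eq_mk_iff_isConj.1 (congrArg Subtype.val h)) (j : F[X])
      have h2 := hgd a.1 j
      have h3 := hgd b.1 j
      exact Nat.eq_of_mul_eq_mul_right hi0 (h2.symm.trans (h1.trans h3))
    · rintro ⟨C, x, rfl, hx⟩
      have hxr : x ^ r = 1 := by rw [← hx]; exact pow_orderOf_eq_one x
      have hdvd : ∀ j : s, ∃ a, finrank F (LinearMap.ker (aeval (y x) (j : F[X]))) = a * i := fun j => by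
        haveI : Fact (Irreducible (j : F[X])) := ⟨hirr j j.2⟩
        obtain ⟨W, hW⟩ : ∃ W : Module.End F ↥(LinearMap.ker (aeval (y x) (j : F[X]))), aeval W (j : F[X]) = 0 :=
          ⟨_, aeval_kerRestrict_self (y x) (j : F[X])⟩
        let φ : AdjoinRoot (j : F[X]) →+* Module.End F ↥(LinearMap.ker (aeval (y x) (j : F[X]))) :=
          Ideal.Quotient.lift _ (aeval W).toRingHom fun a ha => by
            obtain ⟨b, rfl⟩ := Ideal.mem_span_singleton.1 ha
            show aeval W ((j : F[X]) * b) = 0
            rw [map_mul, hW, zero_mul]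
        letI := Module.compHom ↥(LinearMap.ker (aeval (y x) (j : F[X]))) φ
        haveI : IsScalarTower F (AdjoinRoot (j : F[X])) ↥(LinearMap.ker (aeval (y x) (j : F[X]))) :=
          IsScalarTower.of_algebraMap_smul fun c v => by
            show aeval W (C c) v = c • v
            rw [aeval_C, Module.algebraMap_end_apply]
        refine ⟨finrank (AdjoinRoot (j : F[X])) ↥(LinearMap.ker (aeval (y x) (j : F[X]))), ?_⟩
        rw [← Module.finrank_mul_finrank F (AdjoinRoot (j : F[X])) ↥(LinearMap.ker (aeval (y x) (j : F[X]))),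
          finrank_adjoinRoot (hirr j j.2).ne_zero, hdeg j j.2, mul_comm]
      choose a ha using hdvd
      have hle : ∑ j, a j ≤ n / i := by
        rw [Nat.le_div_iff_mul_le hi0, Finset.sum_mul]
        have h1 := hdims x hxr
        rw [Finset.sum_congr rfl (fun j _ => ha j)] at h1
        omega
      have hc : IsConj (g ⟨a, hle⟩) x := hconj _ _ (hgr _) hxr fun j => (hgd _ j).trans (ha j).symm
      refine ⟨⟨⟨a, hle⟩, fun e => ?_⟩, Subtype.ext (ConjClasses.mk_eq_mk_iff_isConj.2 hc)⟩
      rw [(hone _).2 e] at hc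
      rw [isConj_one_right.1 hc, orderOf_one] at hx
      exact hr.one_lt.ne hx
  rw [← Nat.card_congr (Equiv.ofBijective f hf)]
  haveI : Finite T := by
    refine Finite.of_injective (fun a : T => fun j : s => (⟨a.1 j, Nat.lt_succ_of_le
      (le_trans (Finset.single_le_sum (fun k _ => Nat.zero_le _) (Finset.mem_univ j)) a.2)⟩ : Fin (n / i + 1))) ?_
    intro a b h
    exact Subtype.ext (funext fun j => congrArg Fin.val (congrFun h j))
  haveI : Fintype T := Fintype.ofFinite T
  rw [Nat.card_eq_fintype_card, Fintype.card_subtype_compl, Fintype.card_subtype_eq, ← Nat.card_eq_fintype_card,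
    card_fun_sum_le, Fintype.card_coe, hst]

end Cfsg.Agent.ClassConj
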