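import Cfsg.Agent.ClassConj.PGLInvolutions

/-!
Classes of elements of prime order in a linear group modulo scalars, the prime dividing the order
of the scalars.
-/

set_option autoImplicit false
set_option linter.all false

namespace Cfsg.Agent.ClassConj

open Polynomial Module
open scoped Matrix

/-- The multiplicity tuples. -/
abbrev MultTuple (n r : ℕ) [NeZero r] := {a : ZMod r → ℕ // ∑ k, a k = n ∧ ∀ k, a k < n}

theorem card_multTuple {n r : ℕ} [NeZero r] (hn : 0 < n) :
    Nat.card (MultTuple n r) = Nat.choose (n + r - 1) (r - 1) - r := by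
  classical
  let T0 := {a : ZMod r → ℕ // ∑ k, a k = n}
  let E : T0 ≃ Sym (ZMod r) n := (Sym.equivNatSumOfFintype (ZMod r) n).symm
  haveI : Fintype T0 := Fintype.ofEquiv _ E.symm
  have hT0 : Fintype.card T0 = Nat.choose (n + r - 1) (r - 1) := by
    rw [Fintype.card_congr E, Sym.card_sym_eq_choose, ZMod.card]
    have hr : 0 < r := NeZero.pos r
    rw [add_comm r n]
    exact Nat.choose_symm_of_eq_add (by omega)
  let e1 : MultTuple n r ≃ {a : T0 // ∀ k, a.1 k < n} :=
    (Equiv.subtypeSubtypeEquivSubtypeInter (fun a : ZMod r → ℕ => ∑ k, a k = n)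
      (fun a => ∀ k, a k < n)).symm
  let g : ZMod r → {a : T0 // ¬ ∀ k, a.1 k < n} := fun k =>
    ⟨⟨Pi.single k n, Fintype.sum_pi_single' k n⟩, fun h => by simpa using h k⟩
  have hg : Function.Bijective g := by
    constructor
    · intro a b h
      have h' := congrFun (congrArg (fun x => x.1.1) h) a
      simp only [g, Pi.single_eq_same] at h'
      by_contra hab
      rw [Pi.single_eq_of_ne hab] at h'
      omega
    · rintro ⟨⟨a, ha⟩, h⟩
      simp only [not_forall, not_lt] at h
      obtain ⟨k, hk⟩ := h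
      have hle := Finset.add_sum_erase Finset.univ a (Finset.mem_univ k)
      rw [ha] at hle
      have h0 : ∑ x ∈ Finset.univ.erase k, a x = 0 := by omega
      refine ⟨k, Subtype.ext (Subtype.ext (funext fun x => ?_))⟩
      show (Pi.single k n : ZMod r → ℕ) x = a x
      rcases eq_or_ne x k with rfl | hx
      · rw [Pi.single_eq_same]; omega
      · rw [Pi.single_eq_of_ne hx]
        exact ((Finset.sum_eq_zero_iff.1 h0) x (Finset.mem_erase.2 ⟨hx, Finset.mem_univ x⟩)).symm
  have h3 : Fintype.card {a : T0 // ¬ ∀ k, a.1 k < n} = r := by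
    rw [← Fintype.card_congr (Equiv.ofBijective g hg), ZMod.card]
  rw [Fintype.card_subtype_compl, hT0] at h3
  rw [Nat.card_congr e1, Nat.card_eq_fintype_card]
  have := Fintype.card_subtype_le (fun a : T0 => ∀ k, a.1 k < n)
  omega

instance multTupleVAdd {n r : ℕ} [NeZero r] : AddAction (ZMod r) (MultTuple n r) where
  vadd i a := ⟨fun k => a.1 (k - i), by
    refine ⟨?_, fun k => a.2.2 _⟩
    exact (Equiv.sum_comp (Equiv.subRight i) a.1).trans a.2.1⟩
  zero_vadd a := Subtype.ext (funext fun k => by show a.1 (k - 0) = a.1 k; rw [sub_zero])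
  add_vadd i i' a := Subtype.ext (funext fun k => by
    show a.1 (k - (i + i')) = a.1 (k - i - i')
    rw [sub_add_eq_sub_sub])

theorem multTuple_vadd_apply {n r : ℕ} [NeZero r] (i : ZMod r) (a : MultTuple n r) (k : ZMod r) :
    (i +ᵥ a).1 k = a.1 (k - i) := rfl

theorem card_multTuple_orbits {n r : ℕ} [Fact r.Prime] (hn : 0 < n) :
    Nat.card (AddAction.orbitRel.Quotient (ZMod r) (MultTuple n r)) + (r - 1) * (if r ∣ n then 1 else 0) =
      (Nat.choose (n + r - 1) (r - 1) - r - (if r ∣ n then 1 else 0)) / r + r * (if r ∣ n then 1 else 0) := by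
  classical
  have hr : r.Prime := Fact.out
  haveI : Finite (MultTuple n r) := by
    refine Finite.of_injective (fun a : MultTuple n r => fun k => (⟨a.1 k, a.2.2 k⟩ : Fin n)) ?_
    intro a b h
    exact Subtype.ext (funext fun k => congrArg Fin.val (congrFun h k))
  haveI : Fintype (MultTuple n r) := Fintype.ofFinite _
  set f : ℕ := if r ∣ n then 1 else 0 with hf
  have hfix : ∀ i : ZMod r, i ≠ 0 → Fintype.card (AddAction.fixedBy (MultTuple n r) i) = f := by
    intro i hi
    have hconst : ∀ a : MultTuple n r, i +ᵥ a = a → ∀ k, a.1 k = a.1 0 := by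
      intro a ha k
      have hstep : ∀ x, a.1 (x - i) = a.1 x := fun x => congrFun (congrArg Subtype.val ha) x
      have hm : ∀ (m : ℕ) x, a.1 (x - m * i) = a.1 x := by
        intro m
        induction m with
        | zero => intro x; simp
        | succ m ih => intro x; rw [Nat.cast_succ, add_mul, one_mul, sub_add_eq_sub_sub, hstep, ih]
      have := hm (k / i).val k
      rw [ZMod.natCast_zmod_val, div_mul_cancel₀ k hi, sub_self] at this
      exact this.symm
    have hval : ∀ a : MultTuple n r, i +ᵥ a = a → r * a.1 0 = n := by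
      intro a ha
      have h1 := a.2.1
      rw [Finset.sum_congr rfl (fun k _ => hconst a ha k), Finset.sum_const, Finset.card_univ, ZMod.card,
        smul_eq_mul] at h1
      exact h1
    rw [hf]
    split_ifs with hrn
    · obtain ⟨m, rfl⟩ := hrn
      have hm : 0 < m := Nat.pos_of_mul_pos_left hn
      refine Fintype.card_eq_one_iff.2 ⟨⟨⟨fun _ => m, by simp, fun _ => ?_⟩, Subtype.ext rfl⟩, ?_⟩
      · exact lt_mul_of_one_lt_left hm hr.one_lt
      · rintro ⟨a, ha⟩
        refine Subtype.ext (Subtype.ext (funext fun k => ?_))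
        show a.1 k = m
        rw [hconst a ha k]
        exact Nat.eq_of_mul_eq_mul_left hr.pos (hval a ha)
    · refine Fintype.card_eq_zero_iff.2 ⟨fun a => hrn ⟨_, (hval a.1 a.2).symm⟩⟩
  have hB := AddAction.sum_card_fixedBy_eq_card_orbits_mul_card_addGroup (ZMod r) (MultTuple n r)
  rw [ZMod.card, ← Finset.add_sum_erase _ _ (Finset.mem_univ (0 : ZMod r)),
    Finset.sum_congr rfl (fun i hi => hfix i (Finset.ne_of_mem_erase hi)), Finset.sum_const,
    Finset.card_erase_of_mem (Finset.mem_univ _), Finset.card_univ, ZMod.card, smul_eq_mul,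
    show Fintype.card (AddAction.fixedBy (MultTuple n r) (0 : ZMod r)) = Fintype.card (MultTuple n r) from
      Fintype.card_congr (Equiv.subtypeUnivEquiv fun a => zero_vadd (ZMod r) a)] at hB
  have hcard : Fintype.card (MultTuple n r) = Nat.choose (n + r - 1) (r - 1) - r := by
    rw [← Nat.card_eq_fintype_card, card_multTuple hn]
  rw [hcard] at hB
  set N := Nat.choose (n + r - 1) (r - 1) - r
  set M := Fintype.card (AddAction.orbitRel.Quotient (ZMod r) (MultTuple n r))
  have hfle : f ≤ 1 := by rw [hf]; split_ifs <;> omega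
  rw [Nat.card_eq_fintype_card]
  change M + (r - 1) * f = _
  have h1 : 1 ≤ r := hr.one_le
  rcases Nat.le_one_iff_eq_zero_or_eq_one.1 hfle with h0 | h0 <;> rw [h0] at hB ⊢
  · simp only [mul_zero, add_zero, Nat.sub_zero] at hB ⊢
    rw [hB, Nat.mul_div_cancel _ hr.pos]
  · simp only [mul_one] at hB ⊢
    have hM : 1 ≤ M := by
      by_contra hc
      have : M = 0 := by omega
      rw [this, zero_mul] at hB
      have := hr.two_le
      omega
    have : N - 1 = r * (M - 1) := by
      obtain ⟨M', hM'⟩ : ∃ M', M = M' + 1 := ⟨M - 1, by omega⟩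
      rw [hM', add_mul, one_mul, mul_comm M'] at hB
      rw [hM', Nat.add_sub_cancel]
      omega
    rw [this, Nat.mul_div_cancel_left _ hr.pos]
    omega

variable {F : Type*} [Field F] {n : ℕ}

theorem scGL_mulVec (c : Fˣ) (v : Fin n → F) :
    ((scGL c : GL (Fin n) F) : Matrix (Fin n) (Fin n) F).mulVec v = (c : F) • v := by
  ext x
  show (Matrix.diagonal fun _ : Fin n => (c : F)).mulVec v x = _
  rw [Matrix.mulVec_diagonal]; rfl

theorem endOf_mul_scGL (g : GL (Fin n) F) (c : Fˣ) : endOf (g * scGL c) = (c : F) • endOf g := by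
  refine LinearMap.ext fun v => ?_
  show ((g * scGL c : GL (Fin n) F) : Matrix (Fin n) (Fin n) F).mulVec v =
    (c : F) • (g : Matrix (Fin n) (Fin n) F).mulVec v
  rw [Units.val_mul, ← Matrix.mulVec_mulVec, scGL_mulVec, Matrix.mulVec_smul]

/-- The dimension of an eigenspace. -/
noncomputable def eigDim (g : GL (Fin n) F) (c : F) : ℕ :=
  finrank F (LinearMap.ker (aeval (endOf g) (X - C c : F[X])))

theorem eigDim_mul_scGL (g : GL (Fin n) F) (u : Fˣ) (c : F) :
    eigDim (g * scGL u) ((u : F) * c) = eigDim g c := by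
  rw [eigDim, eigDim]
  have e : aeval (endOf (g * scGL u)) (X - C ((u : F) * c) : F[X]) =
      (u : F) • aeval (endOf g) (X - C c : F[X]) := by
    rw [map_sub, map_sub, aeval_X, aeval_X, aeval_C, aeval_C, endOf_mul_scGL,
      Algebra.algebraMap_eq_smul_one, Algebra.algebraMap_eq_smul_one, mul_smul]
    exact (smul_sub _ _ _).symm
  rw [e, LinearMap.ker_smul _ _ u.ne_zero]

theorem eq_scGL_of_eigDim {g : GL (Fin n) F} (c : Fˣ) (h : eigDim g (c : F) = n) : g = scGL c := by
  have htop : LinearMap.ker (aeval (endOf g) (X - C (c : F) : F[X])) = ⊤ :=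
    Submodule.eq_top_of_finrank_eq (by rw [finrank_fin_fun]; exact h)
  refine Units.ext (Matrix.ext_iff_mulVec.2 fun v => ?_)
  have hv : v ∈ LinearMap.ker (aeval (endOf g) (X - C (c : F) : F[X])) := htop ▸ Submodule.mem_top
  rw [LinearMap.mem_ker, map_sub, aeval_X, aeval_C, LinearMap.sub_apply, Module.algebraMap_end_apply,
    sub_eq_zero] at hv
  rw [scGL_mulVec]
  exact hv

theorem eigDim_scGL (c : Fˣ) : eigDim (scGL c : GL (Fin n) F) (c : F) = n := by
  have : aeval (endOf (scGL c : GL (Fin n) F)) (X - C (c : F) : F[X]) = 0 := by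
    refine LinearMap.ext fun v => ?_
    rw [map_sub, aeval_X, aeval_C, LinearMap.sub_apply, Module.algebraMap_end_apply]
    show ((scGL c : GL (Fin n) F) : Matrix (Fin n) (Fin n) F).mulVec v - _ = 0
    rw [scGL_mulVec, sub_self]
  rw [eigDim, this, LinearMap.ker_zero, finrank_top, finrank_fin_fun]

theorem endOf_pow_eq {g : GL (Fin n) F} {r : ℕ} {c : Fˣ} (h : g ^ r = scGL c) :
    aeval (endOf g) (X ^ r - C (c : F)) = 0 := by
  rw [map_sub, map_pow, aeval_X, aeval_C, endOf, ← map_pow, ← Units.val_pow_eq_pow_val, h, sub_eq_zero,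
    ← AlgEquiv.commutes Matrix.toLinAlgEquiv' (c : F)]
  rfl

theorem eigDim_of_diag {g : GL (Fin n) F} {w : Fin n → F}
    (hg : ∀ (v : Fin n → F) x, (g : Matrix (Fin n) (Fin n) F).mulVec v x = w x * v x) (c : F) :
    eigDim g c = Nat.card {x : Fin n // w x = c} := by
  classical
  have hmem : ∀ v : Fin n → F, v ∈ LinearMap.ker (aeval (endOf g) (X - C c : F[X])) ↔ ∀ x, w x ≠ c → v x = 0 := by
    intro v
    rw [LinearMap.mem_ker, map_sub, aeval_X, aeval_C, LinearMap.sub_apply, Module.algebraMap_end_apply,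
      sub_eq_zero, funext_iff]
    refine forall_congr' fun x => ?_
    show (g : Matrix (Fin n) (Fin n) F).mulVec v x = c * v x ↔ _
    rw [hg]
    constructor
    · intro h hne
      exact (mul_eq_zero.1 (show (w x - c) * v x = 0 by rw [sub_mul, h, sub_self])).resolve_left (sub_ne_zero.2 hne)
    · intro h
      by_cases hx : w x = c
      · rw [hx]
      · rw [h hx, mul_zero, mul_zero]
  let π : LinearMap.ker (aeval (endOf g) (X - C c : F[X])) →ₗ[F] ({x : Fin n // w x = c} → F) :=
    (LinearMap.funLeft F F Subtype.val).comp (Submodule.subtype _)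
  have hπ : Function.Bijective π := by
    constructor
    · intro u v h
      refine Subtype.ext (funext fun x => ?_)
      by_cases hx : w x = c
      · exact congrFun h ⟨x, hx⟩
      · rw [(hmem _).1 u.2 x hx, (hmem _).1 v.2 x hx]
    · intro z
      refine ⟨⟨fun x => if hx : w x = c then z ⟨x, hx⟩ else 0, (hmem _).2 fun x hx => dif_neg hx⟩, ?_⟩
      funext x
      exact dif_pos x.2
  rw [eigDim, (LinearEquiv.ofBijective π hπ).finrank_eq, Module.finrank_pi, Nat.card_eq_fintype_card]

/-- Classes of elements of prime order `r` modulo scalars. -/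
theorem card_primeOrder_mod_scalars {G A : Type*} [Group G] [CommGroup A] [Finite A] [IsCyclic A] {r : ℕ}
    (hr : r.Prime) (hn : 0 < n) (ι : G →* GL (Fin n) F) (hι : Function.Injective ι) (s : A →* G)
    (ψ : A →* Fˣ) (hs : ∀ a, ι (s a) = scGL (ψ a)) (hcen : Subgroup.center G = s.range)
    (hconj : ∀ g h : G, IsConj (ι g) (ι h) → IsConj g h) (hrA : r ∣ Nat.card A)
    (hψ : Function.Injective ψ) (hroot : ∀ a, (∃ b : F, b ^ r = (ψ a : F)) → ∃ b : A, b ^ r = a)
    (hmono : ∀ (τ : Fin n → Fin n), Function.Bijective τ → ∀ (w : Fin n → A), ∃ g : G, ∀ (v : Fin n → F) x,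
      ((ι g : GL (Fin n) F) : Matrix (Fin n) (Fin n) F).mulVec v x = (ψ (w x) : F) * v (τ x)) :
    Nat.card {C : ConjClasses (G ⧸ Subgroup.center G) //
      ∃ g : G ⧸ Subgroup.center G, ConjClasses.mk g = C ∧ orderOf g = r} =
      (Nat.choose (n + r - 1) (r - 1) - r - (if r ∣ n then 1 else 0)) / r + r * (if r ∣ n then 1 else 0) := by
  classical
  haveI : Fact r.Prime := ⟨hr⟩
  -- the scalars
  set P : Subgroup A := (powMonoidHom r : A →* A).range with hP
  have hPi : P.index = r := by rw [hP, IsCyclic.index_powMonoidHom_range, Nat.gcd_eq_right hrA]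
  obtain ⟨γ, hγ⟩ : ∃ γ : A, γ ∉ P := by
    by_contra h
    push Not at h
    rw [(Subgroup.eq_top_iff' P).2 h, Subgroup.index_top] at hPi
    exact hr.ne_one hPi.symm
  have hQ : Nat.card (A ⧸ P) = r := hPi
  have hγo : orderOf (QuotientGroup.mk γ : A ⧸ P) = r :=
    ((hr.eq_one_or_self_of_dvd _ (hQ ▸ orderOf_dvd_natCard _))).resolve_left fun h =>
      hγ ((QuotientGroup.eq_one_iff γ).1 (orderOf_eq_one_iff.1 h))
  have hdec : ∀ a : A, ∃ (k : ℕ) (b : A), k < r ∧ a = γ ^ k * b ^ r := by
    intro a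
    obtain ⟨k, hk⟩ := mem_powers_of_prime_card (G := A ⧸ P) hQ (g := QuotientGroup.mk γ)
      (g' := QuotientGroup.mk a) (fun h => hγ ((QuotientGroup.eq_one_iff γ).1 h))
    have hk' : (QuotientGroup.mk (γ ^ (k % r)) : A ⧸ P) = QuotientGroup.mk a := by
      rw [QuotientGroup.mk_pow, ← hγo, pow_mod_orderOf]; exact hk
    obtain ⟨b, hb⟩ := QuotientGroup.eq.1 hk'
    exact ⟨k % r, b, Nat.mod_lt _ hr.pos, by
      rw [show b ^ r = (γ ^ (k % r))⁻¹ * a from hb, mul_inv_cancel_left]⟩
  have huniq : ∀ (k k' : ℕ) (b : A), k < r → k' < r → γ ^ k = γ ^ k' * b ^ r → k = k' := by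
    intro k k' b hk hk' h
    have h' := congrArg (QuotientGroup.mk : A → A ⧸ P) h
    rw [QuotientGroup.mk_mul, QuotientGroup.mk_pow, QuotientGroup.mk_pow,
      (QuotientGroup.eq_one_iff (b ^ r)).2 (MonoidHom.mem_range.2 ⟨b, rfl⟩), mul_one] at h'
    exact pow_injOn_Iio_orderOf (Set.mem_Iio.2 (by rw [hγo]; exact hk)) (Set.mem_Iio.2 (by rw [hγo]; exact hk')) h'
  obtain ⟨ζ, hζ⟩ := exists_prime_orderOf_dvd_card' (G := A) r hrA
  have hz : IsPrimitiveRoot ((ψ ζ : Fˣ) : F) r := by
    have h := IsPrimitiveRoot.orderOf (ψ ζ)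
    rw [orderOf_injective ψ hψ, hζ] at h
    exact IsPrimitiveRoot.coe_units_iff.2 h
  let ea : ZMod r → A := fun k => ζ ^ k.val
  let e : ZMod r → F := fun k => (ψ (ea k) : F)
  have headd : ∀ i k, ea (i + k) = ea i * ea k := fun i k => by
    show ζ ^ (i + k).val = ζ ^ i.val * ζ ^ k.val
    rw [ZMod.val_add, ← pow_add]
    conv_rhs => rw [← pow_mod_orderOf, hζ]
  have hepow : ∀ k, e k = ((ψ ζ : Fˣ) : F) ^ k.val := fun k => by
    simp only [e, ea, map_pow, Units.val_pow_eq_pow_val]
  have heinj : Function.Injective e := fun i k h => by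
    rw [hepow, hepow] at h
    exact ZMod.val_injective r (hz.pow_inj (ZMod.val_lt i) (ZMod.val_lt k) h)
  have hcop : ∀ a ∈ (Finset.univ : Finset (ZMod r)), ∀ b ∈ Finset.univ, a ≠ b →
      IsCoprime (X - C (e a)) (X - C (e b)) :=
    fun a _ b _ hab => isCoprime_X_sub_C_of_isUnit_sub (sub_ne_zero.2 fun h => hab (heinj h)).isUnit
  have hprod : ∏ k : ZMod r, (X - C (e k)) = X ^ r - C (1 : F) := by
    rw [X_pow_sub_C_eq_prod hz hr.pos (one_pow r)]
    symm
    refine Finset.prod_nbij' (fun i => (i : ZMod r)) ZMod.val (fun i _ => Finset.mem_univ _)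
      (fun k _ => Finset.mem_range.2 (ZMod.val_lt k)) (fun i hi => ?_) (fun k _ => ZMod.natCast_zmod_val k)
      (fun i hi => ?_)
    · exact ZMod.val_cast_of_lt (Finset.mem_range.1 hi)
    · rw [hepow, ZMod.val_cast_of_lt (Finset.mem_range.1 hi), mul_one]
  -- conjugacy
  have hpowsc : ∀ (g : G) (a : A), (g * s a) ^ r = g ^ r * s (a ^ r) := fun g a => by
    have : Commute g (s a) := Subgroup.mem_center_iff.1 (by rw [hcen]; exact ⟨a, rfl⟩) g
    rw [this.mul_pow, map_pow]
  have hιsc : ∀ (g : G) (a : A), ι (g * s a) = ι g * scGL (ψ a) := fun g a => by rw [map_mul, hs]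
  have hmkeq : ∀ g h : G, IsConj (QuotientGroup.mk g : G ⧸ Subgroup.center G) (QuotientGroup.mk h) ↔
      ∃ a : A, IsConj g (h * s a) := by
    intro g h
    have hmk : ∀ a, (QuotientGroup.mk (h * s a) : G ⧸ Subgroup.center G) = QuotientGroup.mk h := fun a =>
      (QuotientGroup.eq.2 (by rw [inv_mul_cancel_left, hcen]; exact ⟨a, rfl⟩)).symm
    constructor
    · intro hc
      obtain ⟨x, hx⟩ := isConj_iff.1 hc
      obtain ⟨x, rfl⟩ := QuotientGroup.mk_surjective x
      have hx' : (QuotientGroup.mk h : G ⧸ Subgroup.center G) = QuotientGroup.mk (x * g * x⁻¹) := hx.symm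
      have hm := QuotientGroup.eq.1 hx'
      rw [hcen] at hm
      obtain ⟨a, ha⟩ := hm
      exact ⟨a, isConj_iff.2 ⟨x, by rw [ha, mul_inv_cancel_left]⟩⟩
    · rintro ⟨a, hc⟩
      have := (QuotientGroup.mk' (Subgroup.center G)).map_isConj hc
      rwa [QuotientGroup.mk'_apply, QuotientGroup.mk'_apply, hmk] at this
  have hpow_eq : ∀ {g h : G} {a a' c : A}, g ^ r = s a → h ^ r = s a' → IsConj g (h * s c) → a = a' * c ^ r := by
    intro g h a a' c hg hh hc
    obtain ⟨x, hx⟩ := isConj_iff.1 hc
    have h1 : (h * s c) ^ r = s a := by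
      rw [← hx, conj_pow, hg, Subgroup.mem_center_iff.1 (by rw [hcen]; exact ⟨a, rfl⟩) x, mul_inv_cancel_right]
    rw [hpowsc, hh, ← map_mul] at h1
    have h2 := congrArg ι h1
    rw [hs, hs] at h2
    exact (hψ (scGL_injective hn h2)).symm
  have hιpow : ∀ {g : G} {a : A}, g ^ r = s a → (ι g) ^ r = scGL (ψ a) := fun {g a} h => by
    rw [← map_pow, h, hs]
  have hsum : ∀ g : G, g ^ r = s 1 → ∑ k, eigDim (ι g) (e k) = n := by
    intro g hg
    have h := sum_finrank_ker (Finset.univ : Finset (ZMod r)) (fun k => X - C (e k)) hcop (endOf (ι g))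
      (by rw [hprod]; simpa using endOf_pow_eq (hιpow hg))
    rw [finrank_fin_fun] at h
    exact h.symm
  have hsplit : ∀ g h : G, g ^ r = s 1 → h ^ r = s 1 → (∀ k, eigDim (ι g) (e k) = eigDim (ι h) (e k)) →
      IsConj g h := by
    intro g h hg hh hd
    obtain ⟨E, hE⟩ := exists_intertwiner_of_kerDims (Finset.univ : Finset (ZMod r)) (fun k => X - C (e k))
      (fun k _ => irreducible_X_sub_C _) hcop (endOf (ι g)) (endOf (ι h))
      (by rw [hprod]; simpa using endOf_pow_eq (hιpow hg))
      (by rw [hprod]; simpa using endOf_pow_eq (hιpow hh))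
      (fun k _ => hd k)
    exact hconj _ _ (isConj_GL_of_intertwiner _ _ E hE)
  have hshift : ∀ (g : G) (i k : ZMod r), eigDim (ι (g * s (ea i))) (e k) = eigDim (ι g) (e (k - i)) := by
    intro g i k
    have : e k = (ψ (ea i) : F) * e (k - i) := by
      simp only [e]
      rw [← Units.val_mul, ← map_mul, ← headd, add_sub_cancel]
    rw [this, hιsc, eigDim_mul_scGL]
  -- representatives of the split classes
  have hrepS : ∀ a : MultTuple n r, ∃ g : G, g ^ r = s 1 ∧ ∀ k, eigDim (ι g) (e k) = a.1 k := by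
    intro a
    obtain ⟨E⟩ : Nonempty (Fin n ≃ Σ k : ZMod r, Fin (a.1 k)) :=
      ⟨(Fintype.equivFinOfCardEq (by simp [Fintype.card_sigma, a.2.1])).symm⟩
    obtain ⟨g, hg⟩ := hmono id Function.bijective_id fun x => ea (E x).1
    refine ⟨g, hι (Units.ext (Matrix.ext_iff_mulVec.2 fun v => funext fun x => ?_)), fun k => ?_⟩
    · have hp : ∀ (m : ℕ) (v : Fin n → F) (x : Fin n), ((ι g : GL (Fin n) F) : Matrix (Fin n) (Fin n) F) ^ m *ᵥ v = fun y : Fin n => e (E y).1 ^ m * v y := by
        intro m v x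
        induction m generalizing v with
        | zero => funext y; simp
        | succ m ih =>
          funext y
          rw [pow_succ, ← Matrix.mulVec_mulVec, ih, pow_succ, mul_assoc]
          show e (E y).1 ^ m * _ = _
          rw [hg]; rfl
      rw [map_pow, Units.val_pow_eq_pow_val, hp r v x, hs, map_one, scGL_mulVec, Units.val_one, one_smul]
      show e (E x).1 ^ r * v x = v x
      rw [hepow, ← pow_mul, Nat.mul_comm, pow_mul, hz.pow_eq_one, one_pow, one_mul]
    · rw [eigDim_of_diag (w := fun x => e (E x).1) (fun v x => hg v x) (e k)]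
      rw [Nat.card_congr (Equiv.subtypeEquiv E (q := fun p : Σ k : ZMod r, Fin (a.1 k) => p.1 = k)
        (fun x => heinj.eq_iff)), Nat.card_congr (Equiv.sigmaSubtype k), Nat.card_fin]
  choose gS hgS hdS using hrepS
  -- representatives of the others
  let K := {_k : Fin (r - 1) // r ∣ n}
  have hrepN : ∀ k : K, ∃ g : G, g ^ r = s (γ ^ ((k.1 : ℕ) + 1)) := by
    intro k
    obtain ⟨m, hm⟩ := k.2
    set a := γ ^ ((k.1 : ℕ) + 1)
    obtain ⟨E⟩ : Nonempty (Fin n ≃ Fin m × ZMod r) :=
      ⟨(Fintype.equivFinOfCardEq (by simp [hm, mul_comm])).symm⟩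
    let τ : Fin n → Fin n := fun x => E.symm ((E x).1, (E x).2 - 1)
    have hτ : Function.Bijective τ := by
      refine Finite.injective_iff_bijective.1 fun x y h => E.injective ?_
      have := E.symm.injective h
      exact Prod.ext (Prod.ext_iff.1 this).1 (sub_left_injective (Prod.ext_iff.1 this).2)
    obtain ⟨g, hg⟩ := hmono τ hτ fun x => if (E x).2 = 0 then a else 1
    let w : Fin m × ZMod r → F := fun p => (ψ (if p.2 = 0 then a else 1) : F)
    have hp : ∀ (t : ℕ) (v : Fin n → F) (x : Fin n), (((ι g : GL (Fin n) F) : Matrix (Fin n) (Fin n) F) ^ t *ᵥ v) x =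
        (∏ u ∈ Finset.range t, w ((E x).1, (E x).2 - u)) * v (E.symm ((E x).1, (E x).2 - t)) := by
      intro t
      induction t with
      | zero => intro v x; simp
      | succ t ih =>
        intro v x
        rw [pow_succ, ← Matrix.mulVec_mulVec, ih, hg, Finset.prod_range_succ, mul_assoc]
        simp only [τ, E.apply_symm_apply, Nat.cast_succ, sub_add_eq_sub_sub, w]
    refine ⟨g, hι (Units.ext (Matrix.ext_iff_mulVec.2 fun v => funext fun x => ?_))⟩
    rw [map_pow, Units.val_pow_eq_pow_val, hp, hs, scGL_mulVec, ZMod.natCast_self, sub_zero, Prod.mk.eta,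
      E.symm_apply_apply, Pi.smul_apply, smul_eq_mul]
    congr 1
    rw [Finset.prod_eq_single (E x).2.val]
    · simp [w]
    · intro u hu hne
      have : (E x).2 - (u : ZMod r) ≠ 0 := fun h => hne (by
        rw [sub_eq_zero.1 h, ZMod.val_cast_of_lt (Finset.mem_range.1 hu)])
      simp [w, this]
    · exact fun h => absurd (Finset.mem_range.2 (ZMod.val_lt _)) h
  choose gN hgN using hrepN
  have hs1 : s 1 = 1 := map_one s
  have hord : ∀ (g : G) (a : A), g ^ r = s a → g ∉ Subgroup.center G →
      orderOf (QuotientGroup.mk g : G ⧸ Subgroup.center G) = r := by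
    intro g a hg hne
    refine orderOf_eq_prime ?_ fun h => hne ((QuotientGroup.eq_one_iff g).1 h)
    rw [← QuotientGroup.mk_pow, QuotientGroup.eq_one_iff, hg, hcen]
    exact ⟨a, rfl⟩
  have hSne : ∀ a, gS a ∉ Subgroup.center G := by
    intro a hm
    rw [hcen] at hm
    obtain ⟨c, hc⟩ := hm
    have hc1 := hgS a
    rw [← hc, ← map_pow] at hc1
    have hcr : c ^ r = 1 := by
      have := congrArg ι hc1
      rw [hs, hs] at this
      exact hψ (scGL_injective hn this)
    obtain ⟨i, hi, hic⟩ := hz.eq_pow_of_pow_eq_one (ξ := ((ψ c : Fˣ) : F)) (by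
      rw [← Units.val_pow_eq_pow_val, ← map_pow, hcr, map_one, Units.val_one])
    have h1 : eigDim (ι (gS a)) (e (i : ZMod r)) = n := by
      rw [hepow, ZMod.val_cast_of_lt hi, hic, ← hc, hs, eigDim_scGL]
    rw [hdS] at h1
    exact (a.2.2 _).ne h1
  have hnotP : ∀ k : K, γ ^ ((k.1 : ℕ) + 1) ∉ P := by
    rintro k ⟨b, hb⟩
    have := huniq ((k.1 : ℕ) + 1) 0 b (by omega) hr.pos (by rw [pow_zero, one_mul]; exact hb.symm)
    omega
  have hNne : ∀ k, gN k ∉ Subgroup.center G := by
    intro k hm
    rw [hcen] at hm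
    obtain ⟨c, hc⟩ := hm
    have hc1 := hgN k
    rw [← hc, ← map_pow] at hc1
    have := congrArg ι hc1
    rw [hs, hs] at this
    exact hnotP k ⟨c, hψ (scGL_injective hn this)⟩
  let S := AddAction.orbitRel.Quotient (ZMod r) (MultTuple n r)
  let X' := {C : ConjClasses (G ⧸ Subgroup.center G) //
      ∃ g : G ⧸ Subgroup.center G, ConjClasses.mk g = C ∧ orderOf g = r}
  let fS : S → X' := Quotient.lift (fun a => (⟨ConjClasses.mk (QuotientGroup.mk (gS a)), _, rfl,
      hord _ _ (hgS a) (hSne a)⟩ : X')) (by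
    intro a b hab
    obtain ⟨i, hi⟩ := AddAction.mem_orbit_iff.1 (AddAction.orbitRel_apply.1 hab)
    refine Subtype.ext (ConjClasses.mk_eq_mk_iff_isConj.2 ((hmkeq _ _).2 ⟨ea i, ?_⟩))
    refine hsplit _ _ (hgS a) ?_ fun k => ?_
    · rw [hpowsc, hgS, hs1, one_mul]
      have hea : ea i ^ r = 1 := by
        show (ζ ^ i.val) ^ r = 1
        rw [← pow_mul, mul_comm, pow_mul, show ζ ^ r = 1 from hζ ▸ pow_orderOf_eq_one ζ, one_pow]
      rw [hea, hs1]
    · rw [hshift, hdS, hdS, ← hi, multTuple_vadd_apply])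
  let fN : K → X' := fun k => ⟨ConjClasses.mk (QuotientGroup.mk (gN k)), _, rfl, hord _ _ (hgN k) (hNne k)⟩
  have hf : Function.Bijective (Sum.elim fS fN) := by
    constructor
    · refine Function.Injective.sumElim ?_ ?_ ?_
      · intro x y
        induction x using Quotient.inductionOn with
        | h a =>
          induction y using Quotient.inductionOn with
          | h b =>
            intro h
            obtain ⟨c, hc⟩ := (hmkeq _ _).1 (ConjClasses.mk_eq_mk_iff_isConj.1 (congrArg Subtype.val h))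
            have hcr := hpow_eq (hgS a) (hgS b) hc
            rw [one_mul] at hcr
            obtain ⟨i, hi, hic⟩ := hz.eq_pow_of_pow_eq_one (ξ := ((ψ c : Fˣ) : F)) (by
              rw [← Units.val_pow_eq_pow_val, ← map_pow, ← hcr, map_one, Units.val_one])
            have hci : c = ea (i : ZMod r) := hψ (Units.ext (by
              show _ = e (i : ZMod r)
              rw [hepow, ZMod.val_cast_of_lt hi, hic]))
            refine Quotient.sound (AddAction.orbitRel_apply.2 (AddAction.mem_orbit_iff.2 ⟨(i : ZMod r), ?_⟩))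
            refine Subtype.ext (funext fun k => ?_)
            rw [multTuple_vadd_apply, ← hdS, ← hdS, ← hshift, ← hci]
            exact (kerDims_of_isConj ((ι).map_isConj hc) _).symm
      · intro k k' h
        obtain ⟨c, hc⟩ := (hmkeq _ _).1 (ConjClasses.mk_eq_mk_iff_isConj.1 (congrArg Subtype.val h))
        have := huniq _ _ c (by omega) (by omega) (hpow_eq (hgN k) (hgN k') hc)
        exact Subtype.ext (Fin.ext (by omega))
      · intro x k h
        induction x using Quotient.inductionOn with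
        | h a =>
          obtain ⟨c, hc⟩ := (hmkeq _ _).1 (ConjClasses.mk_eq_mk_iff_isConj.1 (congrArg Subtype.val h.symm))
          have := hpow_eq (hgN k) (hgS a) hc
          rw [one_mul] at this
          exact hnotP k ⟨c, this.symm⟩
    · rintro ⟨C', x, rfl, hx⟩
      obtain ⟨g, rfl⟩ := QuotientGroup.mk_surjective x
      have hgne : g ∉ Subgroup.center G := fun hm => by
        rw [(QuotientGroup.eq_one_iff g).2 hm, orderOf_one] at hx
        exact hr.ne_one hx.symm
      obtain ⟨a, ha⟩ : g ^ r ∈ s.range := by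
        rw [← hcen, ← QuotientGroup.eq_one_iff, QuotientGroup.mk_pow, ← hx, pow_orderOf_eq_one]
      obtain ⟨k, b, hk, rfl⟩ := hdec a
      set g' := g * s b⁻¹ with hg'
      have hg'r : g' ^ r = s (γ ^ k) := by
        rw [hg', hpowsc, ← ha, ← map_mul, mul_assoc, ← mul_pow, mul_inv_cancel, one_pow, mul_one]
      have hg'ne : g' ∉ Subgroup.center G := fun hm => hgne (by
        have : g = g' * (s b⁻¹)⁻¹ := by rw [hg', mul_inv_cancel_right]
        rw [this]
        exact mul_mem hm (inv_mem (by rw [hcen]; exact ⟨_, rfl⟩)))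
      have hfin : ∀ h : G, IsConj h g' → ConjClasses.mk (QuotientGroup.mk h : G ⧸ Subgroup.center G) =
          ConjClasses.mk (QuotientGroup.mk g) := fun h hh =>
        ConjClasses.mk_eq_mk_iff_isConj.2 ((hmkeq _ _).2 ⟨b⁻¹, hh⟩)
      rcases Nat.eq_zero_or_pos k with rfl | hk0
      · rw [pow_zero] at hg'r
        have hlt : ∀ i, eigDim (ι g') (e i) < n := by
          intro i
          refine lt_of_le_of_ne ((Finset.single_le_sum (f := fun k => eigDim (ι g') (e k))
            (fun k _ => Nat.zero_le _) (Finset.mem_univ i)).trans_eq (hsum g' hg'r)) fun h => hg'ne ?_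
          rw [hcen]
          exact ⟨ea i, hι (by rw [hs]; exact (eq_scGL_of_eigDim _ h).symm)⟩
        let t : MultTuple n r := ⟨fun i => eigDim (ι g') (e i), hsum g' hg'r, hlt⟩
        exact ⟨Sum.inl (Quotient.mk _ t), Subtype.ext (hfin _ (hsplit _ _ (hgS t) hg'r (hdS t)))⟩
      · have hnr : ∀ b' : F, b' ^ r ≠ (ψ (γ ^ k) : F) := fun b' hb' => by
          obtain ⟨c, hc⟩ := hroot _ ⟨b', hb'⟩
          have := huniq k 0 c hk hr.pos (by rw [pow_zero, one_mul]; exact hc.symm)
          omega
        have hirr : Irreducible (X ^ r - C (ψ (γ ^ k) : F) : F[X]) := X_pow_sub_C_irreducible_of_prime hr hnr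
        have hrn : r ∣ n := by
          by_contra hrn
          have hco : Nat.Coprime n r := ((Nat.Prime.coprime_iff_not_dvd hr).2 hrn).symm
          have hd := congrArg Matrix.GeneralLinearGroup.det (hιpow hg'r)
          rw [map_pow] at hd
          have hsd : Matrix.GeneralLinearGroup.det (scGL (ψ (γ ^ k)) : GL (Fin n) F) = ψ (γ ^ k) ^ n := by
            apply Units.ext
            simp [Matrix.scalar_apply, ← pow_mul, mul_comm]
          rw [hsd] at hd
          set c := ψ (γ ^ k) with hc
          set d := Matrix.GeneralLinearGroup.det (ι g')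
          have hbez : (1 : ℤ) = n * Nat.gcdA n r + r * Nat.gcdB n r := by
            have := Nat.gcd_eq_gcd_ab n r
            rw [hco, Nat.cast_one] at this
            exact this
          have : c = (d ^ Nat.gcdA n r * c ^ Nat.gcdB n r) ^ r := by
            rw [mul_pow, ← zpow_natCast, ← zpow_mul, mul_comm (Nat.gcdA n r), zpow_mul, zpow_natCast, hd,
              ← zpow_natCast (c ^ Nat.gcdB n r), ← zpow_mul, mul_comm (Nat.gcdB n r), ← zpow_natCast c n,
              ← zpow_mul, ← zpow_add, ← hbez, zpow_one]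
          exact hnr _ (by rw [← Units.val_pow_eq_pow_val, ← this])
        let κ : K := ⟨⟨k - 1, by omega⟩, hrn⟩
        have hκ : γ ^ ((κ.1 : ℕ) + 1) = γ ^ k := by congr 1; show k - 1 + 1 = k; omega
        obtain ⟨E, hE⟩ := exists_intertwiner_irreducible hirr
          (endOf_pow_eq (hιpow (g := gN κ) (a := γ ^ k) (by rw [hgN, hκ]))) (endOf_pow_eq (hιpow hg'r)) rfl
        exact ⟨Sum.inr κ, Subtype.ext (hfin _ (hconj _ _ (isConj_GL_of_intertwiner _ _ E hE)))⟩
  haveI : Finite S := by
    haveI : Finite (MultTuple n r) := by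
      refine Finite.of_injective (fun a : MultTuple n r => fun k => (⟨a.1 k, a.2.2 k⟩ : Fin n)) ?_
      intro a b h
      exact Subtype.ext (funext fun k => congrArg Fin.val (congrFun h k))
    exact Quotient.finite _
  rw [← Nat.card_congr (Equiv.ofBijective _ hf), Nat.card_sum, ← card_multTuple_orbits hn]
  congr 1
  split_ifs with h
  · rw [mul_one, Nat.card_congr (Equiv.subtypeUnivEquiv fun _ => h), Nat.card_fin]
  · haveI : IsEmpty K := ⟨fun k => h k.2⟩
    rw [mul_zero, Nat.card_of_isEmpty]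

end Cfsg.Agent.ClassConj
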